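import Cfsg.Agent.H70.F4Mult.Complement

/-!
The lifted cells of the simple representatives in a central extension with kernel of odd order.
-/

set_option autoImplicit false
set_option maxRecDepth 100000

open Cfsg.Lie Cfsg.Agent.H46 Cfsg.Agent.H65.Twist Cfsg.Agent.H70.F4Out Cfsg.Agent.H47

namespace Cfsg.Agent.H70.F4Mult

variable {K : Type*} [Field K] [Fintype K] [CharP K 2] {m : ℕ} (hK : Fintype.card K = 2 ^ (2 * m + 1))
variable {Γ : Type*} [Group Γ] (s : Γ →* ↥(chevF4.group K))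

/-- The lifts used in the cells. -/
structure Lifts where
  range : s.range = (TD hK).G1
  central : s.ker ≤ Subgroup.center Γ
  odd : Odd (Nat.card s.ker)
  M : Subgroup Γ
  good : Good s (TD hK).H0 M (TD hK).U1
  TE : Subgroup Γ
  te_map : ∀ t ∈ TE, s t ∈ (TD hK).H0
  te_inj : ∀ t ∈ TE, s t = 1 → t = 1
  te_surj : ∀ h ∈ (TD hK).H0, ∃ t ∈ TE, s t = h
  n : Fin 2 → Γ
  lift : NLift hK (s := s) n
  te_conj : ∀ d ∈ Subgroup.closure (Set.range n), ∀ t ∈ TE, d * t * d⁻¹ ∈ TE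

variable {hK s} (X : Lifts hK s)

namespace Lifts

theorem two_M {x : Γ} (hx : x ∈ X.M) : Two x := two_of_mem X.good (fun _ => two_of_U1 hK) hx

theorem mem_M {x : Γ} (h : Two x) (hx : s x ∈ (TD hK).U1) : x ∈ X.M := by
  obtain ⟨y, hy, e⟩ := X.good.lift hx
  exact two_ext X.central X.odd (X.two_M hy) h e ▸ hy

theorem n_inv (j : Fin 2) : (X.n j)⁻¹ = X.n j := inv_eq_of_mul_eq_one_right (X.lift.sq j)

theorem n_conj_te (j : Fin 2) {t : Γ} (ht : t ∈ X.TE) : X.n j * t * X.n j ∈ X.TE := by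
  have := X.te_conj _ (Subgroup.subset_closure (Set.mem_range_self j)) t ht
  rwa [X.n_inv] at this

theorem te_ext {t t' : Γ} (ht : t ∈ X.TE) (ht' : t' ∈ X.TE) (e : s t = s t') : t = t' :=
  mul_inv_eq_one.1 (X.te_inj _ (mul_mem ht (inv_mem ht')) (by rw [map_mul, map_inv, e, mul_inv_cancel]))

theorem te_norm {t u : Γ} (ht : t ∈ X.TE) (hu : u ∈ X.M) : t * u * t⁻¹ ∈ X.M := X.good.stable t (X.te_map t ht) u hu

/-- The lifted cell of a representative. -/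
def Cset (j : Fin 2) : Set Γ := {g | ∃ u ∈ X.M, ∃ t ∈ X.TE, ∃ v ∈ X.M, g = u * t * X.n j * v}

theorem cset_left {j : Fin 2} {u g : Γ} (hu : u ∈ X.M) (hg : g ∈ X.Cset j) : u * g ∈ X.Cset j := by
  obtain ⟨a, ha, t, ht, v, hv, rfl⟩ := hg
  exact ⟨u * a, mul_mem hu ha, t, ht, v, hv, by group⟩

theorem cset_right {j : Fin 2} {u g : Γ} (hg : g ∈ X.Cset j) (hu : u ∈ X.M) : g * u ∈ X.Cset j := by
  obtain ⟨a, ha, t, ht, v, hv, rfl⟩ := hg
  exact ⟨a, ha, t, ht, v * u, mul_mem hv hu, by group⟩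

theorem cset_left_te {j : Fin 2} {t g : Γ} (ht : t ∈ X.TE) (hg : g ∈ X.Cset j) : t * g ∈ X.Cset j := by
  obtain ⟨a, ha, t', ht', v, hv, rfl⟩ := hg
  exact ⟨t * a * t⁻¹, X.te_norm ht ha, t * t', mul_mem ht ht', v, hv, by group⟩

theorem cset_right_te {j : Fin 2} {t g : Γ} (hg : g ∈ X.Cset j) (ht : t ∈ X.TE) : g * t ∈ X.Cset j := by
  obtain ⟨a, ha, t', ht', v, hv, rfl⟩ := hg
  refine ⟨a, ha, t' * (X.n j * t * X.n j), mul_mem ht' (X.n_conj_te j ht), t⁻¹ * v * t, ?_, ?_⟩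
  · simpa using X.te_norm (inv_mem ht) hv
  · calc a * t' * X.n j * v * t = a * t' * X.n j * t * (t⁻¹ * v * t) := by group
      _ = a * (t' * (X.n j * t * X.n j)) * (X.n j)⁻¹ * (t⁻¹ * v * t) := by group
      _ = _ := by rw [X.n_inv]

theorem cset_inv {j : Fin 2} {g : Γ} (hg : g ∈ X.Cset j) : g⁻¹ ∈ X.Cset j := by
  obtain ⟨a, ha, t, ht, v, hv, rfl⟩ := hg
  refine ⟨v⁻¹, inv_mem hv, X.n j * t⁻¹ * X.n j, X.n_conj_te j (inv_mem ht), a⁻¹, inv_mem ha, ?_⟩
  rw [mul_assoc v⁻¹, mul_assoc (X.n j * t⁻¹), X.lift.sq, mul_one]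
  simp only [mul_inv_rev, X.n_inv, mul_assoc]

/-- A lifted cell maps injectively. -/
theorem cset_ext {j : Fin 2} {g g' : Γ} (hg : g ∈ X.Cset j) (hg' : g' ∈ X.Cset j) (e : s g = s g') : g = g' := by
  obtain ⟨u, hu, t, ht, v, hv, rfl⟩ := hg
  obtain ⟨u', hu', t', ht', v', hv', rfl⟩ := hg'
  set T := TD hK
  set n := X.n j
  set w := v' * v⁻¹ with hwdef
  have hw : w ∈ X.M := mul_mem hv' (inv_mem hv)
  set u1 := t'⁻¹ * (u'⁻¹ * u) * t' with hu1def
  have hu1 : u1 ∈ X.M := by simpa [hu1def] using X.te_norm (inv_mem ht') (mul_mem (inv_mem hu') hu)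
  set h1 := t'⁻¹ * t with hh1def
  have hh1 : h1 ∈ X.TE := mul_mem (inv_mem ht') ht
  have hn : s n = T.nS j := X.lift.map j
  have key : T.nS j * s w * (T.nS j)⁻¹ = s u1 * s h1 := by
    have e1 : s (u * t * n) = s (u' * t' * n * w) := by
      rw [hwdef, ← mul_assoc, map_mul _ (u' * t' * n * v'), ← e, map_inv, map_mul _ _ v, mul_inv_cancel_right]
    rw [← hn, ← map_inv, ← map_mul, ← map_mul, ← map_mul]
    calc s (n * w * n⁻¹) = (s (u' * t'))⁻¹ * s (u' * t' * n * w) * (s n)⁻¹ := by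
          simp only [map_mul, map_inv]; group
      _ = s (u1 * h1) := by rw [← e1, hu1def, hh1def]; simp only [map_mul, map_inv]; group
  obtain ⟨x, hx, w', hw', hc, ew⟩ := T.split_fixed j (X.good.mem hw)
  have hV : T.nS j * x * (T.nS j)⁻¹ ∈ T.V := T.X_conj_V j x hx.1
  have e2 : T.nS j * x * (T.nS j)⁻¹ =
      (s u1 * (s h1 * (T.nS j * w' * (T.nS j)⁻¹)⁻¹ * (s h1)⁻¹)) * s h1 := by
    rw [ew] at key
    calc T.nS j * x * (T.nS j)⁻¹ = (T.nS j * (x * w') * (T.nS j)⁻¹) * (T.nS j * w' * (T.nS j)⁻¹)⁻¹ := by group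
      _ = _ := by rw [key]; group
  obtain ⟨hA, hB⟩ := T.UH_inf_V _ (T.U1_le_U (mul_mem (X.good.mem hu1)
    (T.H0_conj_U1 (X.te_map _ hh1) (inv_mem hc)))) _ (T.H0_le_H (X.te_map _ hh1)) (e2 ▸ hV)
  rw [hA, hB, one_mul] at e2
  rw [ew, conj_eq_one_iff.1 e2, one_mul] at key
  have hh : h1 = 1 := X.te_inj _ hh1 hB
  rw [hB, mul_one] at key
  have hnw : n * w * n⁻¹ = u1 := by
    refine two_ext X.central X.odd ((X.two_M hw).conj n) (X.two_M hu1) ?_
    rw [map_mul, map_mul, map_inv, hn, ew, conj_eq_one_iff.1 e2, one_mul, key]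
  have htt : t = t' := (inv_mul_eq_one.1 (hh1def ▸ hh)).symm
  subst htt
  have hwv : w * v = v' := by rw [hwdef, inv_mul_cancel_right]
  calc u * t * n * v = u' * t * u1 * n * v := by rw [hu1def]; group
    _ = u' * t * n * (w * v) := by rw [← hnw]; group
    _ = _ := by rw [hwv]

/-- An element of a class is carried into the lifted cell. -/
def Zok (j : Fin 2) (x : ↥(chevF4.group K)) : Prop := ∀ y ∈ X.M, s y = x → X.n j * y * X.n j ∈ X.Cset j

end Lifts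

/-- The rank-one form of an element of a class. -/
theorem rank_one_form (hK : Fintype.card K = 2 ^ (2 * m + 1)) (j : Fin 2) {x : ↥(chevF4.group K)}
    (hx : x ∈ (TD hK).X1 j) (h1 : x ≠ 1) : ∃ u ∈ (TD hK).X1 j, ∃ h ∈ (TD hK).H0, ∃ v ∈ (TD hK).X1 j,
      (TD hK).nS j * x * (TD hK).nS j = u * h * (TD hK).nS j * v := by
  set S := f4Setup K hK
  obtain ⟨hxS, hxf⟩ := S.mem_X1.1 hx
  obtain ⟨u, hu, huf, h, hh, v, hv, hvf, e⟩ := S.rank_one j x hxS hxf h1
  have hvS : (v : GL chevF4.Idx K) ∈ goodF4.posSub {r | chevF4.IsPosRoot r ∧ chevF4.InRootSub (S.J j) r} := by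
    refine S.pos_inf_levi j hv ?_
    have hh' : (h : GL chevF4.Idx K) ∈ chevF4.leviSubgroup K (S.J j) := Subgroup.mem_sup_left hh.1
    have e' : (v : GL chevF4.Idx K) = (S.nS j : GL chevF4.Idx K)⁻¹ * (h : GL chevF4.Idx K)⁻¹ *
        (u : GL chevF4.Idx K)⁻¹ * ((S.nS j : GL chevF4.Idx K) * x * (S.nS j : GL chevF4.Idx K)⁻¹) := by
      have := congrArg Subtype.val e
      simp only [Subgroup.coe_mul, Subgroup.coe_inv] at this
      rw [this]; group
    rw [e']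
    exact mul_mem (mul_mem (mul_mem (inv_mem (S.nS_levi j)) (inv_mem hh'))
      (inv_mem (S.posSub_cls_le_levi j hu)))
      (mul_mem (mul_mem (S.nS_levi j) (S.posSub_cls_le_levi j hxS)) (inv_mem (S.nS_levi j)))
  refine ⟨u, S.mem_X1.2 ⟨hu, huf⟩, h, hh, v, S.mem_X1.2 ⟨hvS, hvf⟩, ?_⟩
  rw [← show (TD hK).nS j * x * ((TD hK).nS j)⁻¹ = u * h * (TD hK).nS j * v from e, nS_inv]

namespace Lifts

/-- The lift of a rank-one form. -/
theorem exists_cset (j : Fin 2) {u h v : ↥(chevF4.group K)} (hu : u ∈ (TD hK).U1) (hh : h ∈ (TD hK).H0)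
    (hv : v ∈ (TD hK).U1) :
    ∃ u' ∈ X.M, ∃ t ∈ X.TE, ∃ v' ∈ X.M, s u' = u ∧ s t = h ∧ s v' = v ∧
      s (u' * t * X.n j * v') = u * h * (TD hK).nS j * v ∧ u' * t * X.n j * v' ∈ X.Cset j := by
  obtain ⟨a, ha, ea⟩ := X.good.lift hu
  obtain ⟨t, ht, et⟩ := X.te_surj h hh
  obtain ⟨b, hb, eb⟩ := X.good.lift hv
  exact ⟨a, ha, t, ht, b, hb, ea, et, eb, by simp [ea, et, eb, X.lift.map], a, ha, t, ht, b, hb, rfl⟩

theorem zok_exact {j : Fin 2} {x : ↥(chevF4.group K)} (hz : X.Zok j x) {y a t b : Γ} (hy : y ∈ X.M)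
    (ey : s y = x) (ha : a ∈ X.M) (ht : t ∈ X.TE) (hb : b ∈ X.M)
    (e : (TD hK).nS j * x * (TD hK).nS j = s a * s t * (TD hK).nS j * s b) :
    X.n j * y * X.n j = a * t * X.n j * b :=
  X.cset_ext (hz y hy ey) ⟨a, ha, t, ht, b, hb, rfl⟩ (by simp [X.lift.map, ey, e])

/-- Involutions are carried into the cells. -/
theorem zok_involution {j : Fin 2} {x : ↥(chevF4.group K)} (hx : x ∈ (TD hK).X1 j) (h1 : x ≠ 1)
    (h2 : x * x = 1) : X.Zok j x := by
  intro y hy ey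
  obtain ⟨u, hu, h, hh, v, hv, e⟩ := rank_one_form hK j hx h1
  obtain ⟨a, -, t, -, b, -, -, -, -, ec, hC⟩ := X.exists_cset j (X1_le_U1 (TD hK) j hu) hh (X1_le_U1 (TD hK) j hv)
  set c := a * t * X.n j * b
  set g := X.n j * y * X.n j with hg
  have hy2 : y * y = 1 := X.good.inj _ (mul_mem hy hy) (by rw [map_mul, ey, h2])
  have hg2 : g * g = 1 := by
    calc g * g = X.n j * y * (X.n j * X.n j) * y * X.n j := by rw [hg]; group
      _ = X.n j * (y * y) * X.n j := by rw [X.lift.sq]; group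
      _ = 1 := by rw [hy2, mul_one, X.lift.sq]
  have hsg : s g = s c := by rw [hg, map_mul, map_mul, X.lift.map, ey, e, ec]
  have hgi : g⁻¹ = g := inv_eq_of_mul_eq_one_right hg2
  have hci : c⁻¹ = c := X.cset_ext (X.cset_inv hC) hC (by rw [map_inv, ← hsg, ← map_inv, hgi])
  have hz : s (c⁻¹ * g) = 1 := by rw [map_mul, map_inv, hsg, inv_mul_cancel]
  have hz2 : (c⁻¹ * g) * (c⁻¹ * g) = 1 := by
    calc (c⁻¹ * g) * (c⁻¹ * g) = c⁻¹ * g * (c * g⁻¹) := by rw [hci, hgi]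
      _ = c⁻¹ * (g * c) * g⁻¹ := by group
      _ = 1 := by
        rw [show g * c = c * g from ?_]
        · group
        have := Subgroup.mem_center_iff.1 (X.central hz) c
        calc g * c = c * ((c⁻¹ * g) * c) := by group
          _ = c * g := by rw [← this]; group
  have : c⁻¹ * g = 1 := ker_eq_one_of_two X.odd hz (Two.of_sq hz2)
  rw [← inv_mul_eq_one.1 this]
  exact hC

theorem zok_inv {j : Fin 2} {x : ↥(chevF4.group K)} (hz : X.Zok j x) : X.Zok j x⁻¹ := by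
  intro y hy ey
  have := X.cset_inv (hz y⁻¹ (inv_mem hy) (by rw [map_inv, ey, inv_inv]))
  simpa [X.n_inv, mul_assoc] using this

theorem zok_conj {j : Fin 2} {x g : ↥(chevF4.group K)} (hg : g ∈ (TD hK).H0) (hz : X.Zok j x) :
    X.Zok j (g * x * g⁻¹) := by
  intro y hy ey
  obtain ⟨t, ht, et⟩ := X.te_surj g hg
  have hy' : t⁻¹ * y * t ∈ X.M := by simpa using X.te_norm (inv_mem ht) hy
  have h1 := hz _ hy' (by rw [map_mul, map_mul, map_inv, ey, et]; group)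
  have h2 := X.cset_right_te (X.cset_left_te (X.n_conj_te j ht) h1) (X.n_conj_te j (inv_mem ht))
  convert h2 using 1
  calc X.n j * y * X.n j
      = X.n j * t * (t⁻¹ * y * t) * t⁻¹ * X.n j := by group
    _ = X.n j * t * (X.n j * X.n j) * (t⁻¹ * y * t) * (X.n j * X.n j) * t⁻¹ * X.n j := by
        simp only [X.lift.sq, mul_one]
    _ = _ := by group

end Lifts

end Cfsg.Agent.H70.F4Mult
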