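import Cfsg.Agent.H70.F4Mult.Roots
import Cfsg.Agent.H64.SzMult.Weight

/-!
The preimages of the class groups in a central extension: their commutator subgroups avoid the kernel.
-/

set_option autoImplicit false
set_option maxRecDepth 100000

open Cfsg.Lie Cfsg.Agent.H46 Cfsg.Agent.H65.Twist Cfsg.Agent.H70.F4Out
open scoped commutatorElement

namespace Cfsg.Agent.H70.F4Mult

variable {K : Type*} [Field K] [Fintype K] [CharP K 2] {m : ℕ} (hK : Fintype.card K = 2 ^ (2 * m + 1))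
variable {Γ : Type*} [Group Γ] (s : Γ →* ↥(chevF4.group K))

/-- A chosen preimage. -/
noncomputable def lft (g : ↥(chevF4.group K)) : Γ := Function.invFun s g

variable (hs : s.range = (TD hK).G1) (hc : s.ker ≤ Subgroup.center Γ)

include hs in
theorem s_lft {g : ↥(chevF4.group K)} (hg : g ∈ (TD hK).G1) : s (lft s g) = g :=
  Function.invFun_eq (hs.symm ▸ hg : g ∈ s.range)

include hc in
theorem ker_comm {z : Γ} (hz : s z = 1) (x : Γ) : z * x = x * z := (Subgroup.mem_center_iff.1 (hc hz) x).symm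

omit [Fintype K] [CharP K 2] in
theorem conj_comm (d x y : Γ) : d * ⁅x, y⁆ * d⁻¹ = ⁅d * x * d⁻¹, d * y * d⁻¹⁆ := by
  simp only [commutatorElement_def]; group

include hc in
/-- A pairing into the kernel is fixed by conjugation. -/
theorem pairing_conj {x x' y y' d : Γ} (h1 : s ⁅x, y⁆ = 1) (ex : s (d * x * d⁻¹) = s x')
    (ey : s (d * y * d⁻¹) = s y') : ⁅x', y'⁆ = ⁅x, y⁆ := by
  rw [← Cfsg.Agent.H82.Chev.commutator_congr hc ex ey, ← conj_comm, ← ker_comm s hc h1, mul_inv_cancel_right]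

include hc in
theorem bracket_left {x x' y : Γ} (h : x * ⁅x', y⁆ = ⁅x', y⁆ * x) (h' : ⁅x', y⁆ * ⁅x, y⁆ = ⁅x, y⁆ * ⁅x', y⁆) :
    ⁅x * x', y⁆ = ⁅x, y⁆ * ⁅x', y⁆ := by
  rw [show ⁅x * x', y⁆ = x * ⁅x', y⁆ * x⁻¹ * ⁅x, y⁆ by simp only [commutatorElement_def]; group, h,
    mul_inv_cancel_right, h']

include hc in
theorem bracket_right {x y y' : Γ} (h : y * ⁅x, y'⁆ = ⁅x, y'⁆ * y) :
    ⁅x, y * y'⁆ = ⁅x, y⁆ * ⁅x, y'⁆ := by
  rw [show ⁅x, y * y'⁆ = ⁅x, y⁆ * (y * ⁅x, y'⁆ * y⁻¹) by simp only [commutatorElement_def]; group, h,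
    mul_inv_cancel_right]

variable (hm : 1 ≤ m)

include hK hm in
theorem exists_witness : ∃ c : K, c ≠ 0 ∧ 1 + c ≠ 0 ∧ (id (1 + c))⁻¹ - 1 - (id c)⁻¹ ≠ 0 := by
  obtain ⟨c, hcm⟩ := exists_moved hK hm
  have hc0 : c ≠ 0 := fun e => hcm (by rw [e, map_zero])
  have hc1 : 1 + c ≠ 0 := fun e => hcm (by rw [show c = 1 by linear_combination e - two_zero K, map_one])
  refine ⟨c, hc0, hc1, fun h => ?_⟩
  simp only [id] at h
  have h3 : c ^ 2 + c + 1 = 0 := by
    field_simp at h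
    linear_combination h + (1 + c + c ^ 2) * two_zero K
  have h4 : c ^ 4 = c := by linear_combination (c ^ 2 - c) * h3
  have hpow : ∀ k : ℕ, c ^ 4 ^ k = c := by
    intro k
    induction k with
    | zero => simp
    | succ k ih => rw [pow_succ, pow_mul, ih, h4]
  have hq : c ^ Fintype.card K = c := FiniteField.pow_card c
  rw [hK, pow_succ, pow_mul, pow_mul 2 2 m, show (2 : ℕ) ^ 2 = 4 by norm_num, hpow] at hq
  have : c = 1 := mul_right_cancel₀ hc0 (by rw [← pow_two, hq, one_mul])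
  exact hcm (by rw [this, map_one])

include hs hc hm in
/-- The preimage of the pair class is abelian. -/
theorem comm_X0 {a b : Γ} (ha : s a ∈ (TD hK).X1 0) (hb : s b ∈ (TD hK).X1 0) : ⁅a, b⁆ = 1 := by
  obtain ⟨x, hx⟩ := mem_X0 hK ha
  obtain ⟨y, hy⟩ := mem_X0 hK hb
  have hP : ∀ t, s (lft s (pairU K m t)) = pairU K m t := fun t => s_lft hK s hs (pairU_G1 hK t)
  have h1 : ∀ t t', s ⁅lft s (pairU K m t), lft s (pairU K m t')⁆ = 1 := fun t t' => by
    rw [map_commutatorElement, hP, hP, commutatorElement_eq_one_iff_mul_comm, pairU_add, pairU_add, add_comm]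
  obtain ⟨c, hc0, hc1, hD⟩ := exists_witness hK hm
  rw [Cfsg.Agent.H82.Chev.commutator_congr hc (hx.trans (hP x).symm) (hy.trans (hP y).symm)]
  refine Cfsg.Agent.H64.biadd_invariant_eq_one (fun t t' => ⁅lft s (pairU K m t), lft s (pairU K m t')⁆) id
    (fun t t' b => ?_) (fun t b b' => ?_) (fun k hk t t' => ?_) (fun _ h => h) hc0 hc1 hD x y
  · have e : s (lft s (pairU K m (t + t'))) = s (lft s (pairU K m t) * lft s (pairU K m t')) := by
      rw [map_mul, hP, hP, hP, pairU_add]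
    show ⁅lft s (pairU K m (t + t')), lft s (pairU K m b)⁆ = _
    rw [Cfsg.Agent.H82.Chev.commutator_congr hc e rfl]
    exact bracket_left s hc (ker_comm s hc (h1 _ _) _).symm (ker_comm s hc (h1 _ _) _)
  · have e : s (lft s (pairU K m (b + b'))) = s (lft s (pairU K m b) * lft s (pairU K m b')) := by
      rw [map_mul, hP, hP, hP, pairU_add]
    show ⁅lft s (pairU K m t), lft s (pairU K m (b + b'))⁆ = _
    rw [Cfsg.Agent.H82.Chev.commutator_congr hc rfl e]
    exact bracket_right s hc (ker_comm s hc (h1 _ _) _).symm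
  · obtain ⟨d, hd⟩ := exists_wt hK (Units.mk0 k hk) 1
    have hdl := s_lft hK s hs (H0_le_G1 (TD hK) hd.1)
    refine pairing_conj s hc (d := lft s d) (h1 _ _) ?_ ?_ <;>
      simp [hdl, hP, hd.2.1]

variable {s}

include hs hc hm in
/-- The two neighbours commute in the extension. -/
theorem comm_RQ {a b : Γ} {v w : K} (ha : s a = Rel hK v) (hb : s b = Qel hK w) : ⁅a, b⁆ = 1 := by
  have hN : ∀ j, (TD hK).nS j ∈ (TD hK).G1 := fun j => (TD hK).N0_le_G1 ((TD hK).nS_mem_N0 j)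
  have hQ : ∀ w, s (lft s (Qel hK w)) = Qel hK w := fun w => s_lft hK s hs
    (mul_mem (mul_mem (mul_mem (hN 1) (hN 0)) (b2U_G1 hK 0 w)) (inv_mem (mul_mem (hN 1) (hN 0))))
  have hR : ∀ v, s (lft s (Rel hK v)) = Rel hK v := fun v => s_lft hK s hs
    (mul_mem (mul_mem (hN 0) (b2U_G1 hK 0 v)) (inv_mem (hN 0)))
  have hadd : ∀ w w', Qel hK (w + w') = Qel hK w * Qel hK w' := fun w w' => by
    have e : b2U K m 0 w * b2U K m 0 w' = b2U K m 0 (w + w') := by rw [b2U_mul hK]; simp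
    simp only [Qel, ← e]; group
  have h1 : ∀ v w, s ⁅lft s (Rel hK v), lft s (Qel hK w)⁆ = 1 := fun v w => by
    rw [map_commutatorElement, hR, hQ, commutatorElement_eq_one_iff_mul_comm, Rel_Qel_commute]
  set f : K → Γ := fun w => ⁅lft s (Rel hK v), lft s (Qel hK w)⁆ with hf
  have hfadd : ∀ w w', f (w + w') = f w * f w' := fun w w' => by
    simp only [hf]
    rw [Cfsg.Agent.H82.Chev.commutator_congr hc rfl (show s (lft s (Qel hK (w + w'))) =
      s (lft s (Qel hK w) * lft s (Qel hK w')) by rw [map_mul, hQ, hQ, hQ, hadd])]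
    exact bracket_right s hc (ker_comm s hc (h1 _ _) _).symm
  obtain ⟨α, hα⟩ : ∃ α : Kˣ, α ≠ 1 := by
    obtain ⟨c, hcm⟩ := exists_moved hK hm
    have hc0 : c ≠ 0 := fun e => hcm (by rw [e, map_zero])
    exact ⟨Units.mk0 c hc0, fun e => hcm (by
      rw [show c = 1 from congrArg Units.val e, map_one])⟩
  obtain ⟨t, ht⟩ := exists_wt hK α 1
  set h := cR hK * t * (cR hK)⁻¹ with hh
  have hR' : Wt hK ((cR hK)⁻¹ * h * cR hK) α 1 := by simpa [hh, mul_assoc] using ht
  have hQ' : ∃ α', Wt hK ((cQ hK)⁻¹ * h * cQ hK) α' (phiU K m α) := by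
    have e1 := ht.conj.1
    have e2 := e1.conj.2
    have e3 := e2.conj.1
    refine ⟨(α⁻¹ * (α * 1) ^ 2 * phiU K m (α * 1))⁻¹, ?_⟩
    have e : (cQ hK)⁻¹ * h * cQ hK = (TD hK).nS 0 * ((TD hK).nS 1 * ((TD hK).nS 0 * t * ((TD hK).nS 0)⁻¹) *
        ((TD hK).nS 1)⁻¹) * ((TD hK).nS 0)⁻¹ := by
      simp only [hh, cQ, cR, mul_inv_rev, nS_inv, mul_assoc]
    rw [e]
    convert e3 using 1
    simp only [mul_one]
    refine Units.ext ?_
    push_cast
    field_simp
  obtain ⟨α', hQ'⟩ := hQ'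
  set c : K := iterateFrobenius K 2 m (phiU K m α : K) * (phiU K m α : K) with hcdef
  have hc1 : c + 1 ≠ 0 := fun e => hα (by
    have : phiU K m α = 1 := nrm_eq_one hK (by linear_combination e - two_zero K)
    refine Units.ext ((iterateFrobenius K 2 (m + 1)).injective ?_)
    rw [Units.val_one, map_one]
    exact congrArg Units.val this)
  have hinv : ∀ w, f (c * w) = f w := fun w => by
    have hd := s_lft hK s hs (H0_le_G1 (TD hK) ((TD hK).H0_conj 0 t ht.1))
    refine pairing_conj s hc (d := lft s h) (h1 _ _) ?_ ?_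
    · rw [map_mul, map_mul, map_inv, hR, show s (lft s h) = h from hd, Rel, conj_top hK hR']
      simp [Rel]
    · rw [map_mul, map_mul, map_inv, hQ, hQ, show s (lft s h) = h from hd, Qel, conj_top hK hQ']
      simp [Qel, hcdef]
  have key : f w = 1 := by
    have hw : w = c * (w / (c + 1)) + w / (c + 1) := by field_simp
    rw [hw, hfadd, hinv, ← hfadd, CharTwo.add_self_eq_zero]
    exact mul_eq_left.1 (by rw [← hfadd, add_zero] : f 0 * f 0 = f 0)
  rw [Cfsg.Agent.H82.Chev.commutator_congr hc (ha.trans (hR v).symm) (hb.trans (hQ w).symm)]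
  exact key

include hs hc hm in
/-- The top of the class of type B₂ is central in the preimage of the class. -/
theorem comm_top {a z : Γ} {t u w : K} (ha : s a = b2U K m t u) (hz : s z = b2U K m 0 w) : ⁅a, z⁆ = 1 := by
  have hA : cA hK ∈ s.range := hs.symm ▸ (TD hK).N0_le_G1 (cA_mem hK)
  obtain ⟨n, hn⟩ := hA
  -- move to the middle class
  rw [← conj_eq_one_iff (a := n), conj_comm]
  set A := n * a * n⁻¹
  set Z := n * z * n⁻¹
  have hA : s A = Ael hK t u := by simp [A, hn, ha, Ael]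
  have hZ : s Z = Ael hK 0 w := by simp [Z, hn, hz, Ael]
  clear_value A Z
  obtain ⟨v, v', e⟩ := Ael_top_comm hK (m := m) w
  have hN : ∀ j, (TD hK).nS j ∈ (TD hK).G1 := fun j => (TD hK).N0_le_G1 ((TD hK).nS_mem_N0 j)
  have hQG : Qel hK v' ∈ (TD hK).G1 :=
    mul_mem (mul_mem (mul_mem (hN 1) (hN 0)) (b2U_G1 hK 0 v')) (inv_mem (mul_mem (hN 1) (hN 0)))
  set P := lft s (pairU K m v)
  set Q := lft s (Qel hK v')
  have hP : s P = pairU K m v := s_lft hK s hs (pairU_G1 hK v)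
  have hQ : s Q = Qel hK v' := s_lft hK s hs hQG
  obtain ⟨r, hr⟩ := Ael_conj_pairU hK t u v
  set R := lft s (Rel hK r)
  have hR : s R = Rel hK r := s_lft hK s hs (mul_mem (mul_mem (hN 0) (b2U_G1 hK 0 r)) (inv_mem (hN 0)))
  rw [Cfsg.Agent.H82.Chev.commutator_congr hc rfl (show s Z = s ⁅P, Q⁆ by rw [hZ, map_commutatorElement, hP, hQ, e])]
  have h1 : A * ⁅P, Q⁆ * A⁻¹ = ⁅P, Q⁆ := by
    rw [conj_comm, Cfsg.Agent.H82.Chev.commutator_congr hc
      (show s (A * P * A⁻¹) = s (P * R) by rw [map_mul, map_mul, map_inv, map_mul, hA, hP, hR, hr])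
      (show s (A * Q * A⁻¹) = s Q by
        rw [map_mul, map_mul, map_inv, hA, hQ, Ael_Qel_commute, mul_inv_cancel_right]),
      show ⁅P * R, Q⁆ = P * ⁅R, Q⁆ * P⁻¹ * ⁅P, Q⁆ by simp only [commutatorElement_def]; group,
      comm_RQ hK hs hc hm hR hQ]
    group
  rw [commutatorElement_eq_one_iff_mul_comm]
  exact mul_inv_eq_iff_eq_mul.1 h1

include hK in
theorem b2U_inv (t u : K) : (b2U K m t u)⁻¹ = b2U K m t (u + iterateFrobenius K 2 m t * t) :=
  inv_eq_of_mul_eq_one_right (by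
    rw [b2U_mul hK, CharTwo.add_self_eq_zero, show u + (u + iterateFrobenius K 2 m t * t) +
      iterateFrobenius K 2 m t * t = 0 by linear_combination (u + iterateFrobenius K 2 m t * t) * two_zero K,
      b2U_zero])

include hs hc hm in
/-- The commutator subgroup of the preimage of the class of type B₂ avoids the kernel. -/
theorem commutator_X1 {z : Γ} (hz : z ∈ ⁅((TD hK).X1 1).comap s, ((TD hK).X1 1).comap s⁆) (hz1 : s z = 1) :
    z = 1 := by
  classical
  set P := ((TD hK).X1 1).comap s with hP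
  set A : K → Γ := fun t => lft s (b2U K m t 0) with hA
  have hsA : ∀ t, s (A t) = b2U K m t 0 := fun t => s_lft hK s hs (b2U_G1 hK t 0)
  have hAP : ∀ t, A t ∈ P := fun t => by rw [hP, Subgroup.mem_comap, hsA]; exact b2U_X1 hK t 0
  have hdec : ∀ x ∈ P, ∃ t u, s x = b2U K m t u := fun x hx => mem_X1 hK hx
  have hsC : ∀ t t', ∃ u, s ⁅A t, A t'⁆ = b2U K m 0 u := fun t t' => ⟨_, by
    rw [map_commutatorElement, hsA, hsA, commutatorElement_def, b2U_inv hK, b2U_inv hK, b2U_mul hK, b2U_mul hK,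
      b2U_mul hK]
    congr 1
    linear_combination (t + t') * two_zero K⟩
  have hCcomm : ∀ t t', ∀ y ∈ P, y * ⁅A t, A t'⁆ = ⁅A t, A t'⁆ * y := fun t t' y hy => by
    obtain ⟨a, b, e⟩ := hdec y hy
    obtain ⟨u, e'⟩ := hsC t t'
    exact commutatorElement_eq_one_iff_mul_comm.1 (comm_top hK hs hc hm e e')
  have hred : ∀ x ∈ P, ∀ y ∈ P, ∃ t t', ⁅x, y⁆ = ⁅A t, A t'⁆ := by
    intro x hx y hy
    obtain ⟨t, u, e⟩ := hdec x hx
    obtain ⟨t', u', e'⟩ := hdec y hy
    refine ⟨t, t', ?_⟩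
    set Z := lft s (b2U K m 0 u)
    set Z' := lft s (b2U K m 0 u')
    have hZ : s Z = b2U K m 0 u := s_lft hK s hs (b2U_G1 hK 0 u)
    have hZ' : s Z' = b2U K m 0 u' := s_lft hK s hs (b2U_G1 hK 0 u')
    have e1 : s x = s (A t * Z) := by rw [e, map_mul, hsA, hZ, b2U_mul hK]; simp
    have e2 : s y = s (A t' * Z') := by rw [e', map_mul, hsA, hZ', b2U_mul hK]; simp
    have hZy : ⁅Z, A t' * Z'⁆ = 1 := by
      rw [← commutatorElement_inv, comm_top hK hs hc hm (a := A t' * Z') (by rw [← e2, e']) hZ, inv_one]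
    rw [Cfsg.Agent.H82.Chev.commutator_congr hc e1 e2,
      show ⁅A t * Z, A t' * Z'⁆ = A t * ⁅Z, A t' * Z'⁆ * (A t)⁻¹ * ⁅A t, A t' * Z'⁆ by
        simp only [commutatorElement_def]; group, hZy,
      show ⁅A t, A t' * Z'⁆ = ⁅A t, A t'⁆ * (A t' * ⁅A t, Z'⁆ * (A t')⁻¹) by
        simp only [commutatorElement_def]; group, comm_top hK hs hc hm (hsA t) hZ']
    group
  let E : Subgroup Γ := P ⊓ Subgroup.centralizer (P : Set Γ)
  letI : CommGroup E :=
    { (inferInstance : Group E) with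
      mul_comm := fun x y => Subtype.ext ((Subgroup.mem_centralizer_iff.mp y.2.2) x.1 x.2.1) }
  have hC : ∀ t t', ⁅A t, A t'⁆ ∈ E := fun t t' => ⟨by
      obtain ⟨u, e⟩ := hsC t t'
      show s _ ∈ (TD hK).X1 1
      rw [e]; exact b2U_X1 hK 0 u,
    Subgroup.mem_centralizer_iff.2 (hCcomm t t')⟩
  let C : K → K → E := fun t t' => ⟨⁅A t, A t'⁆, hC t t'⟩
  have hsum : ∀ t t', ∃ v, s (A t * A t') = s (A (t + t') * lft s (b2U K m 0 v)) := fun t t' =>
    ⟨iterateFrobenius K 2 m t * t', by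
      rw [map_mul, map_mul, hsA, hsA, hsA, s_lft hK s hs (b2U_G1 hK 0 _), b2U_mul hK, b2U_mul hK]; simp⟩
  have hCl : ∀ a a' b, C (a + a') b = C a b * C a' b := by
    intro a a' b
    obtain ⟨v, hv⟩ := hsum a a'
    apply Subtype.ext
    show ⁅A (a + a'), A b⁆ = ⁅A a, A b⁆ * ⁅A a', A b⁆
    have e1 : ⁅A a * A a', A b⁆ = ⁅A (a + a') * lft s (b2U K m 0 v), A b⁆ :=
      Cfsg.Agent.H82.Chev.commutator_congr hc hv rfl
    rw [bracket_left s hc (hCcomm _ _ _ (hAP a)) (Subgroup.mem_centralizer_iff.1 (hC a b).2 _ (hC a' b).1)] at e1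
    have e2 : ⁅lft s (b2U K m 0 v), A b⁆ = 1 := by
      rw [← commutatorElement_inv, comm_top hK hs hc hm (hsA b) (s_lft hK s hs (b2U_G1 hK 0 v)), inv_one]
    rw [show ⁅A (a + a') * lft s (b2U K m 0 v), A b⁆ = A (a + a') * ⁅lft s (b2U K m 0 v), A b⁆ *
      (A (a + a'))⁻¹ * ⁅A (a + a'), A b⁆ by simp only [commutatorElement_def]; group, e2] at e1
    rw [e1]; group
  have hCr : ∀ a b b', C a (b + b') = C a b * C a b' := by
    intro a b b'
    obtain ⟨v, hv⟩ := hsum b b'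
    apply Subtype.ext
    show ⁅A a, A (b + b')⁆ = ⁅A a, A b⁆ * ⁅A a, A b'⁆
    have e1 : ⁅A a, A b * A b'⁆ = ⁅A a, A (b + b') * lft s (b2U K m 0 v)⁆ :=
      Cfsg.Agent.H82.Chev.commutator_congr hc rfl hv
    rw [bracket_right s hc (hCcomm _ _ _ (hAP b))] at e1
    rw [show ⁅A a, A (b + b') * lft s (b2U K m 0 v)⁆ = ⁅A a, A (b + b')⁆ * (A (b + b') *
      ⁅A a, lft s (b2U K m 0 v)⁆ * (A (b + b'))⁻¹) by simp only [commutatorElement_def]; group,
      comm_top hK hs hc hm (hsA a) (s_lft hK s hs (b2U_G1 hK 0 v))] at e1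
    rw [e1]; group
  -- the torus
  let d : Kˣ → ↥(chevF4.group K) := fun k => (exists_wt hK 1 k).choose
  have hd : ∀ k, Wt hK (d k) 1 k := fun k => (exists_wt hK 1 k).choose_spec
  have hsd : ∀ k, s (lft s (d k)) = d k := fun k => s_lft hK s hs (H0_le_G1 (TD hK) (hd k).1)
  have hnorm : ∀ g ∈ (TD hK).H0, ∀ y ∈ P, ∀ G : Γ, s G = g → G * y * G⁻¹ ∈ P := by
    intro g hg y hy G hG
    obtain ⟨a, b, e⟩ := hdec y hy
    obtain ⟨α, β, hw⟩ := exists_wt_of_mem hK hg
    show s _ ∈ (TD hK).X1 1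
    rw [map_mul, map_mul, map_inv, hG, e, hw.2.2]
    exact b2U_X1 hK _ _
  have hconjE : ∀ k, ∀ x ∈ E, lft s (d k) * x * (lft s (d k))⁻¹ ∈ E := by
    intro k x hx
    refine ⟨hnorm _ (hd k).1 x hx.1 _ (hsd k), Subgroup.mem_centralizer_iff.mpr fun y hy => ?_⟩
    have h := Subgroup.mem_centralizer_iff.mp hx.2 _ (hnorm _ (inv_mem (hd k).1) y hy (lft s (d k))⁻¹
      (by rw [map_inv, hsd]))
    have h2 := congrArg (fun t => lft s (d k) * t * (lft s (d k))⁻¹) h
    simp only [inv_inv] at h2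
    calc y * (lft s (d k) * x * (lft s (d k))⁻¹) =
          lft s (d k) * ((lft s (d k))⁻¹ * y * lft s (d k) * x) * (lft s (d k))⁻¹ := by group
      _ = lft s (d k) * (x * ((lft s (d k))⁻¹ * y * lft s (d k))) * (lft s (d k))⁻¹ := h2
      _ = _ := by group
  let cj : Kˣ → (E →* E) := fun k =>
    { toFun := fun x => ⟨lft s (d k) * x.1 * (lft s (d k))⁻¹, hconjE k x.1 x.2⟩
      map_one' := Subtype.ext (by simp)
      map_mul' := fun x y => Subtype.ext (by simp [mul_assoc]) }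
  let avg : E →* E := ∏ k : Kˣ, cj k
  have hcj : ∀ k a a', cj k (C a a') = C ((k : K) * a) ((k : K) * a') := fun k a a' => Subtype.ext (by
    show lft s (d k) * ⁅A a, A a'⁆ * (lft s (d k))⁻¹ = ⁅A _, A _⁆
    rw [conj_comm]
    refine Cfsg.Agent.H82.Chev.commutator_congr hc ?_ ?_ <;> simp [hsd, hsA, (hd k).2.2])
  obtain ⟨c, hc0, hc1, hD⟩ := exists_witness hK hm
  have havgC : ∀ a a', avg (C a a') = 1 := by
    refine Cfsg.Agent.H64.biadd_invariant_eq_one (fun a a' => avg (C a a')) id ?_ ?_ ?_ (fun x hx => hx) hc0 hc1 hD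
    · intro a a' b; simp only [hCl, map_mul]
    · intro a b b'; simp only [hCr, map_mul]
    · intro k hk a a'
      show avg (C (k * a) (k * a')) = avg (C a a')
      simp only [avg, MonoidHom.finsetProd_apply, hcj]
      refine Fintype.prod_equiv (Equiv.mulRight (Units.mk0 k hk)) _ _ fun j => ?_
      simp [mul_assoc]
  let M : Subgroup E := Subgroup.closure {x | ∃ a a', x = C a a'}
  have hM : ∀ x ∈ M, avg x = 1 ∧ x * x = 1 := by
    intro x hx
    refine Subgroup.closure_induction (p := fun x _ => avg x = 1 ∧ x * x = 1) ?_ (by simp) ?_ ?_ hx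
    · rintro _ ⟨a, a', rfl⟩
      refine ⟨havgC a a', ?_⟩
      rw [← hCl, CharTwo.add_self_eq_zero]
      exact mul_eq_left.mp (by rw [← hCl, add_zero] : C 0 a' * C 0 a' = C 0 a')
    · intro x y _ _ h1 h2
      exact ⟨by rw [map_mul, h1.1, h2.1, one_mul], by rw [mul_mul_mul_comm, h1.2, h2.2, one_mul]⟩
    · intro x _ h1
      exact ⟨by rw [map_inv, h1.1, inv_one], by rw [← mul_inv, h1.2, inv_one]⟩
  have hle : ⁅P, P⁆ ≤ M.map E.subtype := by
    rw [Subgroup.commutator_le]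
    intro x hx y hy
    obtain ⟨t, t', e⟩ := hred x hx y hy
    exact ⟨C t t', Subgroup.subset_closure ⟨t, t', rfl⟩, e.symm⟩
  obtain ⟨x, hx, rfl⟩ := hle hz
  obtain ⟨h1, h2⟩ := hM x hx
  have hfix : ∀ k, cj k x = x := fun k => Subtype.ext (by
    show lft s (d k) * x.1 * (lft s (d k))⁻¹ = x.1
    rw [← ker_comm s hc (z := x.1) hz1, mul_inv_cancel_right])
  simp only [avg, MonoidHom.finsetProd_apply, hfix, Finset.prod_const, Finset.card_univ, Fintype.card_units,
    hK] at h1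
  obtain ⟨j, hj⟩ : ∃ j, 2 ^ (2 * m + 1) - 1 = 2 * j + 1 := by
    refine ⟨2 ^ (2 * m) - 1, ?_⟩
    have := Nat.one_le_two_pow (n := 2 * m)
    rw [pow_succ]; omega
  rw [hj, pow_succ, pow_mul, pow_two, h2, one_pow, one_mul] at h1
  rw [Subgroup.coe_subtype, h1, Subgroup.coe_one]

end Cfsg.Agent.H70.F4Mult
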