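import Cfsg.Agent.H70.F4Mult.Torus

/-!
A complement of the kernel in the preimage of the diagonal group, stable under the lifted representatives.
-/

set_option autoImplicit false
set_option maxRecDepth 100000

open Cfsg.Lie Cfsg.Agent.H46 Cfsg.Agent.H65.Twist Cfsg.Agent.H70.F4Out

namespace Cfsg.Agent.H70.F4Mult

variable {K : Type*} [Field K] [Fintype K] [CharP K 2] {m : ℕ} (hK : Fintype.card K = 2 ^ (2 * m + 1))
variable {Γ : Type*} [Group Γ] {s : Γ →* ↥(chevF4.group K)} (hs : s.range = (TD hK).G1)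
  (hc : s.ker ≤ Subgroup.center Γ) (hodd : Odd (Nat.card s.ker))

theorem eq_one_of_fixed {h : ↥(chevF4.group K)} (hh : h ∈ (TD hK).H0)
    (hn : ∀ j, (TD hK).nS j * h * ((TD hK).nS j)⁻¹ = h) : h = 1 := by
  obtain ⟨α, β, hw⟩ := exists_wt_of_mem hK hh
  have h0 := hn 0 ▸ hw.conj.1
  have h1 := hn 1 ▸ hw.conj.2
  have hα : α⁻¹ = α := Units.ext (by
    simpa using pairU_injective ((h0.2.1 1).symm.trans (hw.2.1 1)))
  have hβ : β⁻¹ = β := Units.ext (by
    simpa using (b2U_injective ((h1.2.2 1 0).symm.trans (hw.2.2 1 0))).1)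
  have ha : α = 1 := eq_one_of_pow_two_pow (k := 1) (by rw [pow_one, pow_two]; nth_rw 1 [← hα]; exact inv_mul_cancel α)
  have hb : β = 1 := eq_one_of_pow_two_pow (k := 1) (by rw [pow_one, pow_two]; nth_rw 1 [← hβ]; exact inv_mul_cancel β)
  subst ha hb
  exact hw.eq_one

include hs hc hodd in
theorem exists_complement [Finite Γ] {n : Fin 2 → Γ} (hn : NLift hK (s := s) n) :
    ∃ TE : Subgroup Γ, (∀ t ∈ TE, s t ∈ (TD hK).H0) ∧ (∀ t ∈ TE, s t = 1 → t = 1) ∧
      (∀ h ∈ (TD hK).H0, ∃ t ∈ TE, s t = h) ∧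
      (∀ d ∈ Subgroup.closure (Set.range n), ∀ t ∈ TE, d * t * d⁻¹ ∈ TE) := by
  classical
  haveI : Fact (Nat.Prime 2) := ⟨Nat.prime_two⟩
  set D := Subgroup.closure (Set.range n) with hD
  haveI : Fintype ↥D := Fintype.ofFinite _
  set T := (TD hK).H0.comap s with hT
  letI : CommGroup ↥T :=
    { (inferInstance : Group ↥T) with mul_comm := fun a b => Subtype.ext (torus_comm hK hs hc hodd a.2 b.2) }
  have hDN : ∀ d ∈ D, s d ∈ (TD hK).N0 := fun d hd => by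
    suffices h : D ≤ (TD hK).N0.comap s from h hd
    refine (Subgroup.closure_le _).2 ?_
    rintro _ ⟨j, rfl⟩
    show s (n j) ∈ (TD hK).N0
    rw [hn.map]; exact (TD hK).nS_mem_N0 j
  have hconj : ∀ d ∈ D, ∀ t ∈ T, d * t * d⁻¹ ∈ T := fun d hd t ht => by
    simp only [hT, Subgroup.mem_comap, map_mul, map_inv] at ht ⊢
    exact (TD hK).H0_normal (hDN d hd) ht
  let cj : ↥D → (↥T →* ↥T) := fun d =>
    { toFun := fun t => ⟨d * t * (d : Γ)⁻¹, hconj d d.2 t t.2⟩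
      map_one' := Subtype.ext (by simp)
      map_mul' := fun x y => Subtype.ext (by simp [mul_assoc]) }
  let ν : ↥T →* ↥T := ∏ d : ↥D, cj d
  have hνr : ∀ (e : ↥D) (t : ↥T), ν (cj e t) = ν t := by
    intro e t
    simp only [ν, MonoidHom.finsetProd_apply]
    refine Fintype.prod_equiv (Equiv.mulRight e) _ _ fun d => Subtype.ext ?_
    simp [cj, mul_assoc]
  have hνl : ∀ (e : ↥D) (t : ↥T), cj e (ν t) = ν t := by
    intro e t
    simp only [ν, MonoidHom.finsetProd_apply, map_prod]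
    refine Fintype.prod_equiv (Equiv.mulLeft e) _ _ fun d => Subtype.ext ?_
    simp [cj, mul_assoc]
  have hνker : ∀ t : ↥T, s (ν t : ↥T) = 1 := fun t => eq_one_of_fixed hK (ν t).2 fun j => by
    have h : (n j) * ((ν t : ↥T) : Γ) * (n j)⁻¹ = ((ν t : ↥T) : Γ) :=
      congrArg Subtype.val (hνl ⟨n j, Subgroup.subset_closure (Set.mem_range_self j)⟩ t)
    have h2 := congrArg s h
    rwa [map_mul, map_mul, map_inv, hn.map] at h2
  have hνk : ∀ t : ↥T, s t = 1 → ν t = t ^ Fintype.card ↥D := fun t ht => by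
    have hfix : ∀ d, cj d t = t := fun d => Subtype.ext (by
      show (d : Γ) * t * (d : Γ)⁻¹ = t
      rw [Subgroup.mem_center_iff.1 (hc ht) (d : Γ), mul_inv_cancel_right])
    simp [ν, MonoidHom.finsetProd_apply, hfix, Finset.prod_const]
  obtain ⟨k, hk⟩ : ∃ k, Fintype.card ↥D = 2 ^ k := by
    have hp : IsPGroup 2 ↥D := fun d => ⟨4, Subtype.ext (hn.two d.2)⟩
    obtain ⟨k, hk⟩ := hp.exists_card_eq
    exact ⟨k, by rwa [Nat.card_eq_fintype_card] at hk⟩
  refine ⟨ν.ker.map T.subtype, ?_, ?_, ?_, ?_⟩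
  · rintro _ ⟨t, -, rfl⟩; exact t.2
  · rintro _ ⟨t, ht, rfl⟩ h1
    refine ker_eq_one_of_two hodd h1 ⟨k, ?_⟩
    have h2 := hνk t h1
    rw [MonoidHom.mem_ker.1 ht, hk] at h2
    exact (congrArg Subtype.val h2).symm
  · intro h hh
    obtain ⟨x, rfl⟩ : h ∈ s.range := hs.symm ▸ H0_le_G1 (TD hK) hh
    set t : ↥T := ⟨x, hh⟩
    -- correct by a power in the kernel
    have hzker : ((ν t : ↥T) : Γ) ^ Nat.card s.ker = 1 :=
      congrArg Subtype.val (pow_card_eq_one' (x := (⟨_, hνker t⟩ : s.ker)))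
    obtain ⟨a, ha⟩ := exists_pow_eq_self_of_coprime (x := ν t) (n := 2 ^ k) (by
      refine (Nat.Coprime.pow_left k (Nat.coprime_two_left.2 hodd)).coprime_dvd_right ?_
      refine orderOf_dvd_of_pow_eq_one (Subtype.ext ?_)
      simpa using hzker)
    have hzk : s ((ν t ^ a : ↥T) : Γ) = 1 := by rw [Subgroup.coe_pow, map_pow, hνker, one_pow]
    refine ⟨((t * (ν t ^ a)⁻¹ : ↥T) : Γ), ⟨t * (ν t ^ a)⁻¹, ?_, rfl⟩, ?_⟩
    · rw [SetLike.mem_coe, MonoidHom.mem_ker, map_mul, map_inv, hνk _ hzk, hk]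
      rw [← pow_mul, mul_comm a, pow_mul, ha, mul_inv_cancel]
    · rw [Subgroup.coe_mul, Subgroup.coe_inv, map_mul, map_inv, hzk, inv_one, mul_one]
  · rintro d hd _ ⟨t, ht, rfl⟩
    exact ⟨cj ⟨d, hd⟩ t, (hνr ⟨d, hd⟩ t).trans ht, rfl⟩

end Cfsg.Agent.H70.F4Mult
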