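import Cfsg.Agent.H70.F4Mult.Cell
import Cfsg.Agent.H70.F4Mult.Classes

/-!
A central extension of the twisted group of type F₄ with kernel of odd order inside the commutator group is trivial.
-/

set_option autoImplicit false
set_option maxRecDepth 100000

open Cfsg.Lie Cfsg.Agent.H46 Cfsg.Agent.H65.Twist Cfsg.Agent.H70.F4Out Cfsg.Agent.H47
open scoped commutatorElement

namespace Cfsg.Agent.H70.F4Mult

variable {K : Type*} [Field K] [Fintype K] [CharP K 2] {m : ℕ} {hK : Fintype.card K = 2 ^ (2 * m + 1)}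
variable {Γ : Type*} [Group Γ] {s : Γ →* ↥(chevF4.group K)} (X : Lifts hK s) (hm : 1 ≤ m)

namespace Lifts

/-- The product relation. -/
theorem prod_forms {x x' u₁ h₁ v₁ u₂ h₂ v₂ : ↥(chevF4.group K)} {j : Fin 2}
    (hx : x ∈ (TD hK).U1) (hx' : x' ∈ (TD hK).U1)
    (hu₁ : u₁ ∈ (TD hK).U1) (hh₁ : h₁ ∈ (TD hK).H0) (hv₁ : v₁ ∈ (TD hK).U1)
    (hu₂ : u₂ ∈ (TD hK).U1) (hh₂ : h₂ ∈ (TD hK).H0) (hv₂ : v₂ ∈ (TD hK).U1)
    (e₁ : (TD hK).nS j * x * (TD hK).nS j = u₁ * h₁ * (TD hK).nS j * v₁)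
    (e₂ : (TD hK).nS j * x' * (TD hK).nS j = u₂ * h₂ * (TD hK).nS j * v₂) (hz₂ : X.Zok j x') :
    (X.Zok j x → X.Zok j (x * x') → X.Zok j (v₁ * u₂)) ∧
      (X.Zok j (x * x') → X.Zok j (v₁ * u₂) → X.Zok j x) := by
  obtain ⟨a, ha, t, ht, b, hb, ea, et, eb, -, hC⟩ := X.exists_cset j hu₁ hh₁ hv₁
  obtain ⟨a', ha', t', ht', b', hb', ea', et', eb', -, -⟩ := X.exists_cset j hu₂ hh₂ hv₂
  obtain ⟨y, hy, ey⟩ := X.good.lift hx
  obtain ⟨y', hy', ey'⟩ := X.good.lift hx'
  set n := X.n j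
  have hy2 : n * y' * n = a' * t' * n * b' := X.zok_exact hz₂ hy' ey' ha' ht' hb' (by rw [e₂, ea', et', eb'])
  have hnn : n * n = 1 := X.lift.sq j
  have expand : a * t * n * b * (a' * t' * n * b') = a * (t * ((n * (b * a') * n) * (n * t' * n) * b')) := by
    calc a * t * n * b * (a' * t' * n * b') = a * (t * (n * (b * a') * 1 * t' * n * b')) := by group
      _ = _ := by rw [← hnn]; group
  have hprod : n * (y * y') * n = (n * y * n) * (n * y' * n) := by
    calc n * (y * y') * n = n * y * 1 * y' * n := by group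
      _ = _ := by rw [← hnn]; group
  constructor
  · intro hz₁ hz w hw ew
    have hw' : w = b * a' := X.good.ext hw (mul_mem hb ha') (by rw [ew, map_mul, eb, ea'])
    have hy1 : n * y * n = a * t * n * b := X.zok_exact hz₁ hy ey ha ht hb (by rw [e₁, ea, et, eb])
    have hp := hz _ (mul_mem hy hy') (by rw [map_mul, ey, ey'])
    rw [hprod, hy1, hy2, expand] at hp
    have h3 := X.cset_left_te (inv_mem ht) (X.cset_left (inv_mem ha) hp)
    simp only [inv_mul_cancel_left] at h3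
    have h4 := X.cset_right_te (X.cset_right h3 (inv_mem hb')) (inv_mem (X.n_conj_te j ht'))
    rw [hw']
    show n * (b * a') * n ∈ X.Cset j
    simpa only [n, mul_inv_cancel_right] using h4
  · intro hz hzw w hw ew
    obtain rfl : w = y := X.good.ext hw hy (by rw [ew, ey])
    set c := a * t * n * b with hc
    have hB : c * (n * y' * n) ∈ X.Cset j := by
      rw [hy2, hc, expand]
      exact X.cset_left ha (X.cset_left_te ht (X.cset_right (X.cset_right_te
        (hzw _ (mul_mem hb ha') (by rw [map_mul, eb, ea'])) (X.n_conj_te j ht')) hb'))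
    have hA : (n * w * n) * (n * y' * n) ∈ X.Cset j := hprod ▸ hz _ (mul_mem hy hy') (by rw [map_mul, ey, ey'])
    have := mul_right_cancel (X.cset_ext hA hB (by
      simp only [hc, map_mul, n, X.lift.map, ey, ea, et, eb]
      rw [e₁]))
    rw [this]
    exact hC

theorem zok_pair {x : ↥(chevF4.group K)} (hx : x ∈ (TD hK).X1 0) (h1 : x ≠ 1) : X.Zok 0 x := by
  refine X.zok_involution hx h1 ?_
  obtain ⟨t, rfl⟩ := mem_X0 hK hx
  rw [pairU_add, CharTwo.add_self_eq_zero, pairU_zero]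

theorem zok_top {u : K} (hu : u ≠ 0) : X.Zok 1 (b2U K m 0 u) :=
  X.zok_involution (b2U_X1 hK 0 u) (fun e => hu (b2U_injective (e.trans b2U_zero.symm)).2)
    (by rw [b2U_sq hK, map_zero, mul_zero, b2U_zero])

theorem nrm_ne (hK : Fintype.card K = 2 ^ (2 * m + 1)) {c : Kˣ} (hc : c ≠ 1) :
    iterateFrobenius K 2 m ((c⁻¹ : Kˣ) : K) * ((c⁻¹ : Kˣ) : K) ≠ 1 :=
  fun e => hc (inv_eq_one.1 (nrm_eq_one hK e))

/-- The generic elements. -/
theorem zok_generic {t u : K} (ht : t ≠ 0) (hu : u ≠ 0) (hne : u ≠ iterateFrobenius K 2 m t * t) :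
    X.Zok 1 (b2U K m t u) := by
  set R := u / (iterateFrobenius K 2 m t * t) with hR
  have hN : iterateFrobenius K 2 m t * t ≠ 0 := mul_ne_zero (by simpa using ht) ht
  have hR0 : R ≠ 0 := div_ne_zero hu hN
  have hR1 : R ≠ 1 := fun e => hne (by rw [← div_eq_one_iff_eq hN]; exact e)
  have hR2 : 1 + R ≠ 0 := fun e => hR1 (by linear_combination e - two_zero K)
  set κ : Kˣ := Units.mk0 (R / (1 + R)) (div_ne_zero hR0 hR2) with hκ
  have hκv : (κ : K) = R / (1 + R) := rfl
  have hκ1 : κ ≠ 1 := fun e => by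
    have h := congrArg Units.val e
    rw [hκv, Units.val_one, div_eq_one_iff_eq hR2] at h
    exact one_ne_zero (by linear_combination -h : (1 : K) = 0)
  obtain ⟨h₁, hh₁, e₁⟩ := rank_one_top hK (1 : Kˣ)
  obtain ⟨h₂, hh₂, e₂⟩ := rank_one_top hK κ
  have hc1 : 1 + (κ : K) ≠ 0 := fun e => hκ1 (Units.ext (by rw [Units.val_one]; linear_combination e - two_zero K))
  have key := (X.prod_forms (b2U_mem_U1 hK _ _) (b2U_mem_U1 hK _ _) (b2U_mem_U1 hK _ _) hh₁ (b2U_mem_U1 hK _ _)
    (b2U_mem_U1 hK _ _) hh₂ (b2U_mem_U1 hK _ _) e₁ e₂ (X.zok_top (mul_ne_zero (by simp) (by simp)))).1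
    (X.zok_top (by simp)) (by
      rw [b2U_mul hK]
      simp only [map_zero, mul_zero, add_zero, inv_one, Units.val_one, map_one, one_mul]
      refine X.zok_top fun e => nrm_ne hK hκ1 ?_
      linear_combination e - two_zero K)
  rw [b2U_mul hK] at key
  obtain ⟨g, hg⟩ := exists_wt hK 1 (Units.mk0 (t / (1 + (κ : K))) (div_ne_zero ht hc1))
  have := X.zok_conj hg.1 key
  rw [hg.2.2] at this
  convert this using 2
  · simp only [Units.val_mk0, Units.val_one]; field_simp
  · simp only [Units.val_mk0, Units.val_one, map_one, one_mul, zero_add]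
    have hu' : u = R * (iterateFrobenius K 2 m t * t) := by rw [hR, div_mul_cancel₀ _ hN]
    have hone : 1 + (κ : K) = 1 / (1 + R) := by
      rw [hκv, eq_div_iff hR2, add_mul, div_mul_cancel₀ _ hR2]
      linear_combination R * two_zero K
    have hk2 : iterateFrobenius K 2 m (κ : K) + 1 = iterateFrobenius K 2 m (1 + (κ : K)) := by
      rw [map_add, map_one, add_comm]
    rw [show iterateFrobenius K 2 m (κ : K) * (κ : K) + (κ : K) =
      (κ : K) * (iterateFrobenius K 2 m (κ : K) + 1) by ring, hk2, map_div₀, hu']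
    have hf : iterateFrobenius K 2 m (1 + (κ : K)) ≠ 0 := by
      rw [map_ne_zero_iff _ (iterateFrobenius K 2 m).injective]; exact hc1
    field_simp
    rw [hone, hκv]
    field_simp

include hm in
theorem zok_one_zero : X.Zok 1 (b2U K m 1 0) := by
  obtain ⟨c, hcm⟩ := exists_moved hK hm
  have hc0 : c ≠ 0 := fun e => hcm (by rw [e, map_zero])
  set μ := Units.mk0 c hc0
  have hμ : μ ≠ 1 := fun e => hcm (by rw [show c = 1 from congrArg Units.val e, map_one])
  obtain ⟨h₂, hh₂, e₂⟩ := rank_one_top hK μ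
  have e₁ : (TD hK).nS 1 * b2U K m 1 0 * (TD hK).nS 1 = b2U K m 1 0 * 1 * (TD hK).nS 1 * b2U K m 0 1 := by
    rw [mul_one]; exact (rank_one_base hK).2
  have hne := nrm_ne hK hμ
  have hne' : iterateFrobenius K 2 m (μ : K) * (μ : K) ≠ 1 := fun e => hμ (nrm_eq_one hK e)
  refine (X.prod_forms (b2U_mem_U1 hK _ _) (b2U_mem_U1 hK _ _) (b2U_mem_U1 hK _ _) (one_mem _) (b2U_mem_U1 hK _ _)
    (b2U_mem_U1 hK _ _) hh₂ (b2U_mem_U1 hK _ _) e₁ e₂ (X.zok_top (mul_ne_zero (by simp) (by simp)))).2 ?_ ?_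
  · rw [b2U_mul hK]
    simp only [mul_zero, add_zero, zero_add]
    refine X.zok_generic one_ne_zero (mul_ne_zero (by simp) (by simp)) ?_
    rw [map_one, one_mul]
    exact hne
  · rw [b2U_mul hK]
    simp only [map_zero, zero_mul, add_zero, zero_add]
    refine X.zok_generic μ.ne_zero (fun e => hne' ?_) fun e => one_ne_zero (α := K) ?_
    · linear_combination e - two_zero K
    · linear_combination e

include hm in
theorem zok_all {j : Fin 2} {x : ↥(chevF4.group K)} (hx : x ∈ (TD hK).X1 j) (h1 : x ≠ 1) : X.Zok j x := by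
  obtain rfl | rfl : j = 0 ∨ j = 1 := by omega
  · exact X.zok_pair hx h1
  · obtain ⟨t, u, rfl⟩ := mem_X1 hK hx
    by_cases ht : t = 0
    · subst ht
      exact X.zok_top fun e => h1 (by rw [e, b2U_zero])
    obtain ⟨g, hg⟩ := exists_wt hK 1 (Units.mk0 t ht)
    by_cases hu : u = 0
    · subst hu
      have := X.zok_conj hg.1 (X.zok_one_zero hm)
      rwa [hg.2.2, mul_one, mul_zero, Units.val_mk0] at this
    by_cases hn : u = iterateFrobenius K 2 m t * t
    · have := X.zok_conj hg.1 (X.zok_inv (X.zok_one_zero hm))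
      rw [b2U_inv hK, hg.2.2] at this
      simpa [← hn] using this
    exact X.zok_generic ht hu hn

/-- The union of the lifted cells. -/
def Cov : Set Γ := {g | ∃ u ∈ X.M, ∃ t ∈ X.TE, ∃ d ∈ Subgroup.closure (Set.range X.n), ∃ v ∈ X.M, g = u * t * d * v}

theorem map_closure {d : Γ} (hd : d ∈ Subgroup.closure (Set.range X.n)) :
    s d ∈ Subgroup.closure (Set.range (TD hK).nS) := by
  suffices h : Subgroup.closure (Set.range X.n) ≤ (Subgroup.closure (Set.range (TD hK).nS)).comap s from h hd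
  refine (Subgroup.closure_le _).2 ?_
  rintro _ ⟨j, rfl⟩
  show s (X.n j) ∈ Subgroup.closure (Set.range (TD hK).nS)
  rw [X.lift.map]
  exact Subgroup.subset_closure (Set.mem_range_self j)

theorem map_N0 {d : Γ} (hd : d ∈ Subgroup.closure (Set.range X.n)) : s d ∈ (TD hK).N0 :=
  (le_sup_left : Subgroup.closure (Set.range (TD hK).nS) ≤ (TD hK).N0) (X.map_closure hd)

theorem move {d x : Γ} (hd : d ∈ Subgroup.closure (Set.range X.n)) {j : Fin 2} (hdj : ¬ (TD hK).Desc (s d) j)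
    (hx : x ∈ X.M) (hxj : s x ∈ (TD hK).X1 j) : d * x * d⁻¹ ∈ X.M := by
  refine X.mem_M ((X.two_M hx).conj d) ?_
  rw [map_mul, map_mul, map_inv]
  have hN := (TD hK).N0_le_fixed (X.map_N0 hd)
  exact (TD hK).U1_mk ((TD hK).not_desc_U _ (X.map_N0 hd) j hdj _ hxj.1)
    (mul_mem (mul_mem hN hxj.2) (inv_mem hN))

include hm in
theorem cov_mul_n {g : Γ} (hg : g ∈ X.Cov) (j : Fin 2) : g * X.n j ∈ X.Cov := by
  obtain ⟨u, hu, t, ht, d, hd, v, hv, rfl⟩ := hg
  set n := X.n j
  have hnn : n * n = 1 := X.lift.sq j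
  have hn : n ∈ Subgroup.closure (Set.range X.n) := Subgroup.subset_closure (Set.mem_range_self j)
  have hsn : s n = (TD hK).nS j := X.lift.map j
  obtain ⟨x, hx, v', hv', hc, e⟩ := (TD hK).split_fixed j (X.good.mem hv)
  obtain ⟨x, hxM, rfl⟩ := X.good.lift (X1_le_U1 (TD hK) j hx)
  obtain ⟨w, hw, rfl⟩ := X.good.lift hv'
  obtain rfl : v = x * w := X.good.ext hv (mul_mem hxM hw) (by rw [map_mul, e])
  have hw' : n * w * n ∈ X.M := by
    refine X.mem_M ?_ ?_
    · have := (X.two_M hw).conj n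
      rwa [X.n_inv] at this
    · rw [map_mul, map_mul, hsn]
      rwa [nS_inv] at hc
  have hsplit : u * t * d * (x * w) * n = u * t * d * x * n * (n * w * n) := by
    calc u * t * d * (x * w) * n = u * t * d * x * 1 * w * n := by group
      _ = _ := by rw [← hnn]; group
  rw [hsplit]
  by_cases hdj : (TD hK).Desc (s d) j
  · by_cases hx1 : s x = 1
    · obtain rfl : x = 1 := X.good.inj x hxM hx1
      exact ⟨u, hu, t, ht, d * n, mul_mem hd hn, n * w * n, hw', by group⟩
    obtain ⟨a, ha, h, hh, b, hb, er⟩ := rank_one_form hK j hx hx1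
    obtain ⟨a', ha', t', ht', b', hb', ea, et, eb, -, -⟩ :=
      X.exists_cset j (X1_le_U1 (TD hK) j ha) hh (X1_le_U1 (TD hK) j hb)
    have hz : n * x * n = a' * t' * n * b' :=
      X.zok_exact (X.zok_all hm hx hx1) hxM rfl ha' ht' hb' (by rw [er, ea, et, eb])
    have hd' : d * n ∈ Subgroup.closure (Set.range X.n) := mul_mem hd hn
    have hnd : ¬ (TD hK).Desc (s (d * n)) j := by
      have := ((TD hK).desc_step _ (X.map_N0 hd) j hdj).2
      rwa [nS_inv, ← hsn, ← map_mul] at this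
    have hA := X.move hd' hnd ha' (ea ▸ ha)
    have hT := X.te_conj _ hd' t' ht'
    refine ⟨u * (t * ((d * n) * a' * (d * n)⁻¹) * t⁻¹), mul_mem hu (X.te_norm ht hA),
      t * ((d * n) * t' * (d * n)⁻¹), mul_mem ht hT, d, hd, b' * (n * w * n), mul_mem hb' hw', ?_⟩
    calc u * t * d * x * n * (n * w * n) = u * t * d * 1 * x * n * (n * w * n) := by group
      _ = u * t * (d * n) * (n * x * n) * (n * w * n) := by rw [← hnn]; group
      _ = u * t * (d * n) * (a' * t' * n * b') * (n * w * n) := by rw [hz]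
      _ = u * (t * ((d * n) * a' * (d * n)⁻¹) * t⁻¹) * (t * ((d * n) * t' * (d * n)⁻¹)) * (d * (n * n)) *
          (b' * (n * w * n)) := by group
      _ = _ := by rw [hnn, mul_one]
  · exact ⟨u * (t * (d * x * d⁻¹) * t⁻¹), mul_mem hu (X.te_norm ht (X.move hd hdj hxM hx)), t, ht, d * n,
      mul_mem hd hn, n * w * n, hw', by group⟩

/-- The subgroup generated by the lifts. -/
def gen : Subgroup Γ := Subgroup.closure ((X.M : Set Γ) ∪ X.TE ∪ Set.range X.n)

include hm in
theorem gen_le : (X.gen : Set Γ) ⊆ X.Cov := by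
  intro g hg
  have step : ∀ a, a ∈ X.Cov → ∀ b, b ∈ (X.M : Set Γ) ∪ X.TE ∪ Set.range X.n → a * b ∈ X.Cov := by
    rintro a ha b ((hb | hb) | ⟨j, rfl⟩)
    · obtain ⟨u, hu, t, ht, d, hd, v, hv, rfl⟩ := ha
      exact ⟨u, hu, t, ht, d, hd, v * b, mul_mem hv hb, by group⟩
    · obtain ⟨u, hu, t, ht, d, hd, v, hv, rfl⟩ := ha
      exact ⟨u, hu, t * (d * b * d⁻¹), mul_mem ht (X.te_conj d hd b hb), d, hd, b⁻¹ * v * b,
        by simpa using X.te_norm (inv_mem hb) hv, by group⟩
    · exact X.cov_mul_n hm ha j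
  induction hg using Subgroup.closure_induction_right with
  | one => exact ⟨1, one_mem _, 1, one_mem _, 1, one_mem _, 1, one_mem _, by group⟩
  | mul_right a _ b hb ih => exact step a ih b hb
  | mul_inv_cancel a _ b hb ih =>
    refine step a ih _ ?_
    rcases hb with (hb | hb) | ⟨j, rfl⟩
    · exact Or.inl (Or.inl (inv_mem hb))
    · exact Or.inl (Or.inr (inv_mem hb))
    · exact Or.inr ⟨j, (X.n_inv j).symm⟩

theorem gen_map : (TD hK).G1 ≤ X.gen.map s := by
  refine (TD hK).G1_le _ (fun j x hx => ?_) (fun j => ?_) fun h hh => ?_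
  · obtain ⟨y, hy, e⟩ := X.good.lift (X1_le_U1 (TD hK) j hx)
    exact ⟨y, Subgroup.subset_closure (Or.inl (Or.inl hy)), e⟩
  · exact ⟨X.n j, Subgroup.subset_closure (Or.inr (Set.mem_range_self j)), X.lift.map j⟩
  · obtain ⟨t, ht, e⟩ := X.te_surj h hh
    exact ⟨t, Subgroup.subset_closure (Or.inl (Or.inr ht)), e⟩

include X hm in
/-- No non-trivial element of the kernel is a product of commutators. -/
theorem eq_one_of_commutator {z : Γ} (hz : z ∈ commutator Γ) (hz1 : s z = 1) : z = 1 := by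
  have hcomm : commutator Γ ≤ X.gen := by
    rw [commutator_def, Subgroup.commutator_le]
    intro a _ b _
    obtain ⟨a', ha', ea⟩ := X.gen_map (X.range ▸ ⟨a, rfl⟩ : s a ∈ (TD hK).G1)
    obtain ⟨b', hb', eb⟩ := X.gen_map (X.range ▸ ⟨b, rfl⟩ : s b ∈ (TD hK).G1)
    rw [Cfsg.Agent.H82.Chev.commutator_congr X.central ea.symm eb.symm, commutatorElement_def]
    exact mul_mem (mul_mem (mul_mem ha' hb') (inv_mem ha')) (inv_mem hb')
  obtain ⟨u, hu, t, ht, d, hd, v, hv, rfl⟩ := X.gen_le hm (hcomm hz)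
  set T := TD hK
  simp only [map_mul] at hz1
  have hd0 : s d ∈ T.H0 := by
    have hcell : s d ∈ T.cell 1 := ⟨(s t)⁻¹ * (s u)⁻¹ * s t, by
        simpa using T.H0_conj_U1 (inv_mem (X.te_map t ht)) (inv_mem (X.good.mem hu)),
      (s t)⁻¹, inv_mem (X.te_map t ht), (s v)⁻¹, inv_mem (X.good.mem hv), by
        calc s d = (s t)⁻¹ * (s u)⁻¹ * (s u * s t * s d * s v) * (s v)⁻¹ := by group
          _ = _ := by rw [hz1]; group⟩
    have := T.cell_unique (one_mem _) (X.map_N0 hd) hcell (T.mem_cell_self _)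
    simpa using this
  have hd1 : d = 1 := two_ext X.central X.odd ⟨4, by simpa using X.lift.two hd⟩ ⟨0, by simp⟩
    (by rw [closure_nS_inf_H0 hK (X.map_closure hd) hd0, map_one])
  subst hd1
  rw [map_one, mul_one] at hz1
  obtain ⟨-, ht1⟩ := T.UH_inf_V (s u * (s t * s v * (s t)⁻¹))
    (T.U1_le_U (mul_mem (X.good.mem hu) (T.H0_conj_U1 (X.te_map t ht) (X.good.mem hv)))) (s t)
    (T.H0_le_H (X.te_map t ht)) (by
      rw [show s u * (s t * s v * (s t)⁻¹) * s t = s u * s t * s v by group, hz1]; exact one_mem _)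
  obtain rfl : t = 1 := X.te_inj t ht ht1
  rw [mul_one, mul_one]
  exact X.good.inj _ (mul_mem hu hv) (by simpa using hz1)

end Lifts

end Cfsg.Agent.H70.F4Mult
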