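import Cfsg.Agent.H70.F4Mult.Unipotent
import Cfsg.Agent.H70.F4Mult.Odd
import Cfsg.Agent.H70.F4Out.Main
import Cfsg.Agent.H64.StemBasic

/-!
The twisted groups of type F₄ have trivial multiplier.
-/

set_option autoImplicit false
set_option maxRecDepth 100000

open Cfsg.Lie Cfsg.Agent.H46 Cfsg.Agent.H65.Twist Cfsg.Agent.H70.F4Out Cfsg.Agent.H47
open scoped Pointwise

namespace Cfsg.Agent.H70.F4Mult

variable {K : Type*} [Field K] [Fintype K] [CharP K 2] {m : ℕ} (hK : Fintype.card K = 2 ^ (2 * m + 1))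

theorem not_two_dvd_index : ¬ 2 ∣ ((TD hK).U1.subgroupOf (TD hK).G1).index := by
  set q := Fintype.card K with hq
  have hqe : Even q := by rw [hK]; exact (Nat.even_pow).2 ⟨even_two, by omega⟩
  have hq2 : 2 ≤ q := by rw [hK]; exact Nat.le_self_pow (by omega) 2
  have h := ((TD hK).U1.subgroupOf (TD hK).G1).card_mul_index
  rw [Nat.card_congr (Subgroup.subgroupOfEquivOfLe (TD hK).U1_le_G1).toEquiv, card_f4U1 hK, card_f4G1 hK,
    mul_assoc, mul_assoc, mul_assoc, ← hq] at h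
  rw [Nat.eq_of_mul_eq_mul_left (by positivity) h]
  have h1 : Odd (q - 1) := Nat.Even.sub_odd (by omega) hqe odd_one
  have h4 : Odd (q ^ 4 - 1) :=
    Nat.Even.sub_odd (Nat.one_le_pow _ _ (by omega)) ((Nat.even_pow).2 ⟨hqe, by omega⟩) odd_one
  have h3 : ∀ n, n ≠ 0 → Odd (q ^ n + 1) := fun n hn => ((Nat.even_pow).2 ⟨hqe, hn⟩).add_one
  exact Odd.not_two_dvd_nat (h1.mul ((h3 3 (by omega)).mul (h4.mul (h3 6 (by omega)))))

include hK in
theorem not_two_dvd_card_ker (hm : 1 ≤ m) {Γ : Type*} [Group Γ] [Finite Γ] {σ : Γ →* ↥(TD hK).G1}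
    (hσ : Cfsg.IsStemExtension σ) : ¬ 2 ∣ Nat.card σ.ker := by
  haveI : Fact (Nat.Prime 2) := ⟨Nat.prime_two⟩
  set s := (TD hK).G1.subtype.comp σ with hsdef
  have hker : s.ker = σ.ker := by ext x; simp [hsdef, MonoidHom.mem_ker]
  have hs : s.range = (TD hK).G1 := by
    rw [hsdef, MonoidHom.range_comp, MonoidHom.range_eq_top.2 hσ.1, ← MonoidHom.range_eq_map, Subgroup.range_subtype]
  have hc : s.ker ≤ Subgroup.center Γ := hker ▸ hσ.2.1
  obtain ⟨M, hM⟩ := exists_good_U1 hK hs hc hm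
  -- a Sylow subgroup over the unipotent group
  have hUp : IsPGroup 2 ↥((TD hK).U1.subgroupOf (TD hK).G1) := by
    refine (IsPGroup.of_card (n := (2 * m + 1) * 12) ?_).of_equiv
      (Subgroup.subgroupOfEquivOfLe (TD hK).U1_le_G1).symm
    rw [card_f4U1 hK, hK, ← pow_mul]
  let S : Sylow 2 ↥(TD hK).G1 := hUp.toSylow (not_two_dvd_index hK)
  obtain ⟨Q⟩ : Nonempty (Sylow 2 Γ) := Sylow.nonempty
  obtain ⟨g, hg⟩ := MulAction.exists_smul_eq ↥(TD hK).G1 (Q.mapSurjective hσ.1) S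
  obtain ⟨γ, rfl⟩ := hσ.1 g
  refine Cfsg.Agent.H64.not_dvd_card_ker_of_sylow hσ (γ • Q) ?_
  have hmem : ∀ x ∈ ((γ • Q : Sylow 2 Γ) : Subgroup Γ), ∃ y ∈ M, s y = s x := by
    intro x hx
    rw [Sylow.coe_subgroup_smul] at hx
    obtain ⟨q, hq, rfl⟩ := hx
    have h1 : σ (MulAut.conj γ • q) ∈ (S : Subgroup ↥(TD hK).G1) := by
      rw [← hg, Sylow.coe_subgroup_smul]
      refine ⟨σ q, Subgroup.mem_map_of_mem σ hq, ?_⟩
      simp
    rw [IsPGroup.toSylow_coe, Subgroup.mem_subgroupOf] at h1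
    exact hM.lift h1
  rw [eq_bot_iff]
  rintro z ⟨hz1, hz2⟩
  have hle : ⁅((γ • Q : Sylow 2 Γ) : Subgroup Γ), ((γ • Q : Sylow 2 Γ) : Subgroup Γ)⁆ ≤ M := by
    rw [Subgroup.commutator_le]
    intro a ha b hb
    obtain ⟨a', ha', ea⟩ := hmem a ha
    obtain ⟨b', hb', eb⟩ := hmem b hb
    rw [Cfsg.Agent.H82.Chev.commutator_congr hc ea.symm eb.symm, commutatorElement_def]
    exact mul_mem (mul_mem (mul_mem ha' hb') (inv_mem ha')) (inv_mem hb')
  exact Subgroup.mem_bot.2 (hM.inj z (hle hz2) (MonoidHom.mem_ker.1 (hker.symm ▸ hz1)))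

include hK in
theorem card_ker_eq_one (hm : 1 ≤ m) {Γ : Type*} [Group Γ] [Finite Γ] {σ : Γ →* ↥(TD hK).G1}
    (hσ : Cfsg.IsStemExtension σ) : Nat.card σ.ker = 1 := by
  set s := (TD hK).G1.subtype.comp σ with hsdef
  have hker : s.ker = σ.ker := by ext x; simp [hsdef, MonoidHom.mem_ker]
  have hs : s.range = (TD hK).G1 := by
    rw [hsdef, MonoidHom.range_comp, MonoidHom.range_eq_top.2 hσ.1, ← MonoidHom.range_eq_map, Subgroup.range_subtype]
  have hc : s.ker ≤ Subgroup.center Γ := hker ▸ hσ.2.1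
  have hodd : Odd (Nat.card s.ker) := by
    rw [hker, Nat.odd_iff]
    have := not_two_dvd_card_ker hK hm hσ
    omega
  obtain ⟨M, hM⟩ := exists_good_U1 hK hs hc hm
  obtain ⟨n, hn⟩ := exists_nLift hK hs hc hodd
  obtain ⟨TE, h1, h2, h3, h4⟩ := exists_complement hK hs hc hodd hn
  let X : Lifts hK s := ⟨hs, hc, hodd, M, hM, TE, h1, h2, h3, n, hn, h4⟩
  have hbot : σ.ker = ⊥ := (Subgroup.eq_bot_iff_forall _).2 fun z hz =>
    X.eq_one_of_commutator hm (hσ.2.2 hz) (MonoidHom.mem_ker.1 (hker.symm ▸ hz))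
  rw [hbot, Subgroup.card_bot]

end Cfsg.Agent.H70.F4Mult
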