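import Cfsg.Agent.H70.F4Mult.RankOne

/-!
A central extension with kernel of odd order: the lifts of the representatives and the complement in the diagonal group.
-/

set_option autoImplicit false
set_option maxRecDepth 100000

open Cfsg.Lie Cfsg.Agent.H46 Cfsg.Agent.H65.Twist Cfsg.Agent.H70.F4Out
open scoped commutatorElement

namespace Cfsg.Agent.H70.F4Mult

/-- An element of 2-power order. -/
def Two {G : Type*} [Group G] (x : G) : Prop := ∃ k, x ^ 2 ^ k = 1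

theorem Two.of_sq {G : Type*} [Group G] {x : G} (h : x * x = 1) : Two x := ⟨1, by rw [pow_one, pow_two, h]⟩

theorem Two.conj {G : Type*} [Group G] {x : G} (h : Two x) (g : G) : Two (g * x * g⁻¹) := by
  obtain ⟨k, hk⟩ := h
  exact ⟨k, by rw [conj_pow, hk]; simp⟩

section Abstract

variable {Γ G : Type*} [Group Γ] [Group G] {s : Γ →* G} (hc : s.ker ≤ Subgroup.center Γ)
  (hodd : Odd (Nat.card s.ker))

include hodd in
theorem ker_eq_one_of_two {z : Γ} (hz : s z = 1) (h : Two z) : z = 1 := by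
  obtain ⟨k, hk⟩ := h
  have h2 : z ^ Nat.card s.ker = 1 := congrArg Subtype.val (pow_card_eq_one' (x := (⟨z, hz⟩ : s.ker)))
  have := pow_gcd_eq_one.2 ⟨hk, h2⟩
  rwa [show Nat.gcd (2 ^ k) (Nat.card s.ker) = 1 from
    Nat.Coprime.pow_left _ (Nat.coprime_two_left.2 hodd), pow_one] at this

include hc hodd in
/-- Lifts of 2-power order are unique. -/
theorem two_ext {x y : Γ} (hx : Two x) (hy : Two y) (e : s x = s y) : x = y := by
  have hz : s (x⁻¹ * y) = 1 := by rw [map_mul, map_inv, e, inv_mul_cancel]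
  have hcomm : Commute x y := by
    have h1 : Commute x (x⁻¹ * y) := Subgroup.mem_center_iff.1 (hc hz) x
    have := (Commute.refl x).mul_right h1
    rwa [mul_inv_cancel_left] at this
  refine inv_mul_eq_one.1 (ker_eq_one_of_two hodd hz ?_)
  obtain ⟨a, ha⟩ := hx
  obtain ⟨b, hb⟩ := hy
  refine ⟨a + b, ?_⟩
  rw [hcomm.inv_left.mul_pow, inv_pow, pow_add, pow_mul, ha, one_pow, inv_one, one_mul, mul_comm, pow_mul, hb,
    one_pow]

include hodd in
theorem exists_two {g : G} (hg : g ∈ s.range) (h : Two g) : ∃ x, s x = g ∧ Two x := by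
  obtain ⟨y, rfl⟩ := hg
  obtain ⟨k, hk⟩ := h
  have hcop : (Nat.card s.ker).Coprime (orderOf (s y)) :=
    (Nat.Coprime.pow_left k (Nat.coprime_two_left.2 hodd)).symm.coprime_dvd_right (orderOf_dvd_of_pow_eq_one hk)
  obtain ⟨a, ha⟩ := exists_pow_eq_self_of_coprime hcop
  refine ⟨(y ^ Nat.card s.ker) ^ a, by rw [map_pow, map_pow, ha], k, ?_⟩
  have h1 : s (y ^ 2 ^ k) = 1 := by rw [map_pow, hk]
  have h2 : (y ^ 2 ^ k) ^ Nat.card s.ker = 1 :=
    congrArg Subtype.val (pow_card_eq_one' (x := (⟨_, h1⟩ : s.ker)))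
  rw [← pow_mul, ← pow_mul, show Nat.card s.ker * (a * 2 ^ k) = 2 ^ k * Nat.card s.ker * a by ring, pow_mul, pow_mul,
    h2, one_pow]

/-- A subgroup splitting over the kernel whose image consists of elements of 2-power order. -/
theorem two_of_mem {T0 : Subgroup G} {M : Subgroup Γ} {W : Subgroup G} (hM : Good s T0 M W)
    (hW : ∀ g ∈ W, Two g) {x : Γ} (hx : x ∈ M) : Two x := by
  obtain ⟨k, hk⟩ := hW _ (hM.mem hx)
  exact ⟨k, hM.inj _ (pow_mem hx _) (by rw [map_pow, hk])⟩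

end Abstract

variable {K : Type*} [Field K] [Fintype K] [CharP K 2] {m : ℕ} (hK : Fintype.card K = 2 ^ (2 * m + 1))

theorem two_of_U1 {g : ↥(chevF4.group K)} (hg : g ∈ (TD hK).U1) : Two g := by
  refine ⟨(2 * m + 1) * 12, ?_⟩
  have h : (⟨g, hg⟩ : ↥(TD hK).U1) ^ Nat.card ↥(TD hK).U1 = 1 := pow_card_eq_one'
  rw [card_f4U1 hK, hK, ← pow_mul] at h
  exact congrArg Subtype.val h

variable {Γ : Type*} [Group Γ] {s : Γ →* ↥(chevF4.group K)} (hs : s.range = (TD hK).G1)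
  (hc : s.ker ≤ Subgroup.center Γ) (hodd : Odd (Nat.card s.ker))

/-- The lifts of the representatives. -/
structure NLift (n : Fin 2 → Γ) : Prop where
  map : ∀ j, s (n j) = (TD hK).nS j
  sq : ∀ j, n j * n j = 1
  rho : (n 0 * n 1) ^ 8 = 1

include hs hc hodd in
theorem exists_nLift : ∃ n : Fin 2 → Γ, NLift hK (s := s) n := by
  have h : ∀ j, ∃ x, s x = (TD hK).nS j ∧ Two x := fun j => exists_two hodd
    (hs.symm ▸ (TD hK).N0_le_G1 ((TD hK).nS_mem_N0 j)) (Two.of_sq (nS_sq_one hK j))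
  choose n hn hn2 using h
  have hsq : ∀ j, n j * n j = 1 := fun j => ker_eq_one_of_two hodd
    (by rw [map_mul, hn, nS_sq_one]) (by
      obtain ⟨k, hk⟩ := hn2 j
      exact ⟨k, by rw [← pow_two, ← pow_mul, mul_comm, pow_mul, hk, one_pow]⟩)
  refine ⟨n, hn, hsq, ?_⟩
  set z := (n 0 * n 1) ^ 8 with hz
  have hz1 : s z = 1 := by rw [map_pow, map_mul, hn, hn, rho_pow hK]
  refine ker_eq_one_of_two hodd hz1 (Two.of_sq ?_)
  have hi : ∀ j, (n j)⁻¹ = n j := fun j => inv_eq_of_mul_eq_one_right (hsq j)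
  have e : n 0 * z * (n 0)⁻¹ = z⁻¹ := by
    rw [hz, ← conj_pow, ← inv_pow, mul_inv_rev, hi, hi, ← mul_assoc (n 0) (n 0), hsq, one_mul]
  rw [Subgroup.mem_center_iff.1 (hc hz1) (n 0), mul_inv_cancel_right] at e
  nth_rw 2 [e]
  exact mul_inv_cancel z

variable {hK} in
theorem NLift.two {n : Fin 2 → Γ} (hn : NLift hK (s := s) n) {d : Γ} (hd : d ∈ Subgroup.closure (Set.range n)) :
    d ^ 16 = 1 := by
  have hi : ∀ j, (n j)⁻¹ = n j := fun j => inv_eq_of_mul_eq_one_right (hn.sq j)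
  set ρ := n 0 * n 1 with hρ
  have key : ∃ i : ℕ, d = ρ ^ i ∨ d = ρ ^ i * n 0 := by
    have hinv : ρ ^ 7 * n 0 = n 1 := by
      have : ρ ^ 7 = n 1 * n 0 := by
        rw [eq_comm, ← mul_left_inj ρ, ← pow_succ, hn.rho, hρ, mul_assoc, ← mul_assoc (n 0), hn.sq, one_mul, hn.sq]
      rw [this, mul_assoc, hn.sq, mul_one]
    have step : ∀ x : Γ, (∃ i : ℕ, x = ρ ^ i ∨ x = ρ ^ i * n 0) → ∀ j,
        ∃ i : ℕ, x * n j = ρ ^ i ∨ x * n j = ρ ^ i * n 0 := by
      rintro x ⟨i, rfl | rfl⟩ j <;> obtain rfl | rfl : j = 0 ∨ j = 1 := by omega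
      · exact ⟨i, Or.inr rfl⟩
      · exact ⟨i + 7, Or.inr (by rw [pow_add, mul_assoc, hinv])⟩
      · exact ⟨i, Or.inl (by rw [mul_assoc, hn.sq, mul_one])⟩
      · exact ⟨i + 1, Or.inl (by rw [mul_assoc, pow_succ])⟩
    induction hd using Subgroup.closure_induction_right with
    | one => exact ⟨0, Or.inl (pow_zero _).symm⟩
    | mul_right a _ b hb ih => obtain ⟨j, rfl⟩ := hb; exact step a ih j
    | mul_inv_cancel a _ b hb ih => obtain ⟨j, rfl⟩ := hb; rw [hi]; exact step a ih j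
  obtain ⟨i, rfl | rfl⟩ := key
  · rw [← pow_mul, mul_comm, show 16 * i = 8 * (2 * i) by ring, pow_mul, hn.rho, one_pow]
  · have e : ρ ^ i * n 0 * (ρ ^ i * n 0) = 1 := by
      have h1 : n 0 * ρ ^ i * (n 0)⁻¹ = (ρ ^ i)⁻¹ := by
        rw [← conj_pow, ← inv_pow, hρ, mul_inv_rev, hi, hi, ← mul_assoc (n 0) (n 0), hn.sq, one_mul]
      calc ρ ^ i * n 0 * (ρ ^ i * n 0) = ρ ^ i * (n 0 * ρ ^ i * (n 0)⁻¹) * (n 0 * n 0) := by group
        _ = 1 := by rw [h1, hn.sq, mul_inv_cancel, one_mul]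
    rw [show 16 = 2 * 8 by norm_num, pow_mul, pow_two, e, one_pow]

include hs hc hodd in
/-- The preimage of the diagonal group is abelian. -/
theorem torus_comm {a b : Γ} (ha : s a ∈ (TD hK).H0) (hb : s b ∈ (TD hK).H0) : a * b = b * a := by
  obtain ⟨c, hgen⟩ := IsCyclic.exists_generator (α := Kˣ)
  obtain ⟨g1, hg1⟩ := exists_wt hK c 1
  obtain ⟨g2, hg2⟩ := exists_wt hK 1 c
  obtain ⟨e1, rfl⟩ : g1 ∈ s.range := hs.symm ▸ H0_le_G1 (TD hK) hg1.1
  obtain ⟨e2, rfl⟩ : g2 ∈ s.range := hs.symm ▸ H0_le_G1 (TD hK) hg2.1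
  -- the generators commute
  have hsc : s e1 * s e2 = s e2 * s e1 := H0_comm hK _ hg1.1 _ hg2.1
  have hz : s ⁅e1, e2⁆ = 1 := by rwa [map_commutatorElement, commutatorElement_eq_one_iff_mul_comm]
  have he : ⁅e1, e2⁆ = 1 := by
    refine ker_eq_one_of_two hodd hz (Two.of_sq ?_)
    obtain ⟨n, hn⟩ : (TD hK).nS 0 ∈ s.range := hs.symm ▸ (TD hK).N0_le_G1 ((TD hK).nS_mem_N0 0)
    have h1 : s (n * e1 * n⁻¹) = s (e1⁻¹ * e2) := by
      rw [map_mul, map_mul, map_inv, hn, map_mul, map_inv]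
      have h := hg1.inv.mul hg2
      simp only [mul_one, inv_one, one_mul] at h
      have h' := hg1.conj.1
      simp only [mul_one] at h'
      exact h'.ext h
    have h2 : s (n * e2 * n⁻¹) = s e2 := by
      rw [map_mul, map_mul, map_inv, hn]
      have h' := hg2.conj.1
      simp only [inv_one, one_mul] at h'
      exact h'.ext hg2
    have e : n * ⁅e1, e2⁆ * n⁻¹ = ⁅e1, e2⁆⁻¹ := by
      rw [show n * ⁅e1, e2⁆ * n⁻¹ = ⁅n * e1 * n⁻¹, n * e2 * n⁻¹⁆ by simp only [commutatorElement_def]; group,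
        Cfsg.Agent.H82.Chev.commutator_congr hc h1 h2]
      calc ⁅e1⁻¹ * e2, e2⁆ = e1⁻¹ * ⁅e1, e2⁆⁻¹ * e1 := by simp only [commutatorElement_def]; group
        _ = _ := by
          rw [Subgroup.mem_center_iff.1 (inv_mem (hc hz)) e1⁻¹, inv_mul_cancel_right]
    rw [Subgroup.mem_center_iff.1 (hc hz) n, mul_inv_cancel_right] at e
    nth_rw 2 [e]
    exact mul_inv_cancel _
  have hcom : Commute e1 e2 := commutatorElement_eq_one_iff_commute.1 he
  -- every element is a product of powers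
  let Φ : Kˣ × Kˣ →* ↥(chevF4.group K) := MonoidHom.mk' (fun p => (exists_wt hK p.1 p.2).choose) fun p q =>
    (exists_wt hK (p * q).1 (p * q).2).choose_spec.ext
      ((exists_wt hK p.1 p.2).choose_spec.mul (exists_wt hK q.1 q.2).choose_spec)
  have hspec : ∀ p, Wt hK (Φ p) p.1 p.2 := fun p => (exists_wt hK p.1 p.2).choose_spec
  have key : ∀ x, s x ∈ (TD hK).H0 → ∃ i j : ℤ, s x = s (e1 ^ i * e2 ^ j) := by
    intro x hx
    obtain ⟨α, β, hw⟩ := exists_wt_of_mem hK hx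
    obtain ⟨i, hi⟩ := Subgroup.mem_zpowers_iff.1 (hgen α)
    obtain ⟨j, hj⟩ := Subgroup.mem_zpowers_iff.1 (hgen β)
    refine ⟨i, j, ?_⟩
    rw [map_mul, map_zpow, map_zpow, hg1.ext (hspec (c, 1)), hg2.ext (hspec (1, c)), ← map_zpow, ← map_zpow,
      ← map_mul]
    refine hw.ext ?_
    convert hspec ((c, 1) ^ i * (1, c) ^ j) using 1 <;> simp [hi, hj]
  obtain ⟨i, j, hi⟩ := key a ha
  obtain ⟨i', j', hi'⟩ := key b hb
  exact (Cfsg.Agent.H82.Chev.commute_congr hc hi.symm hi'.symm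
    (((Commute.zpow_zpow_self e1 i i').mul_left (hcom.symm.zpow_zpow j i')).mul_right
      ((hcom.zpow_zpow i j').mul_left (Commute.zpow_zpow_self e2 j j')))).eq

end Cfsg.Agent.H70.F4Mult
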