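import Cfsg.Agent.H70.F4Mult.Classes

/-!
The unipotent group of a twisted group of type F₄ lifts to every central extension.
-/

set_option autoImplicit false
set_option maxRecDepth 100000

open Cfsg.Lie Cfsg.Agent.H46 Cfsg.Agent.H65.Twist Cfsg.Agent.H70.F4Out Cfsg.Agent.H47
open scoped commutatorElement

namespace Cfsg.Agent.H70.F4Mult

/-- Fixed-point-freeness passes along a descent. -/
theorem fpf_step {G ι : Type*} [Group G] (T : TwistData G ι) (hne : ∀ j, ∃ x ∈ T.X1 j, x ≠ 1) {m : G}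
    (hm : m ∈ T.N0) {j : ι} (hd : T.Desc m j) {h : G} (hh : h ∈ T.H0) (hX : Fpf h (T.X1 j))
    (hV : Fpf (T.nS j * h * (T.nS j)⁻¹) (T.U1w (m * (T.nS j)⁻¹))) : Fpf h (T.U1w m) := by
  intro u hu hfix
  obtain ⟨x, hx, v, hv, rfl⟩ := T.U1w_split hm hd hu
  set g := T.nS j * h * (T.nS j)⁻¹ with hgdef
  have hx' : h * x * h⁻¹ ∈ T.X1 j := by
    rw [← U1w_nS T hne j] at hx ⊢; exact H0_conj_U1w T (T.nS_mem_N0 j) hh hx
  have e2 : T.nS j * (x⁻¹ * (h * x * h⁻¹)) * (T.nS j)⁻¹ = v * (g * v * g⁻¹)⁻¹ := by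
    rw [eq_mul_inv_iff_mul_eq]
    calc T.nS j * (x⁻¹ * (h * x * h⁻¹)) * (T.nS j)⁻¹ * (g * v * g⁻¹)
        = T.nS j * x⁻¹ * (h * (x * ((T.nS j)⁻¹ * v * T.nS j)) * h⁻¹) * (T.nS j)⁻¹ := by
          simp only [hgdef]; group
      _ = v := by rw [hfix]; group
  have h1 : v * (g * v * g⁻¹)⁻¹ = 1 := T.U_inf_V
    (mul_mem hv.1.1 (inv_mem (T.H_conj_U g (T.H0_le_H (T.H0_conj j h hh)) v hv.1.1)))
    (e2 ▸ T.X_conj_V j _ (mul_mem (inv_mem hx.1) hx'.1))
  rw [h1, conj_eq_one_iff, inv_mul_eq_one] at e2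
  rw [hX x hx e2.symm, hV v hv (mul_inv_eq_one.1 h1).symm]
  group

variable {K : Type*} [Field K] [Fintype K] [CharP K 2] {m : ℕ} (hK : Fintype.card K = 2 ^ (2 * m + 1))

theorem X1_conj (j : Fin 2) {t : ↥(chevF4.group K)} (ht : t ∈ (TD hK).H0) {x : ↥(chevF4.group K)}
    (hx : x ∈ (TD hK).X1 j) : t * x * t⁻¹ ∈ (TD hK).X1 j := by
  rw [← U1w_nS (TD hK) (f4_hne hK) j] at hx ⊢
  exact H0_conj_U1w (TD hK) ((TD hK).nS_mem_N0 j) ht hx

theorem fpf_X1 {h : ↥(chevF4.group K)} {α β : Kˣ} (w : Wt hK h α β) (j : Fin 2)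
    (hne : (if j = 0 then α else β) ≠ 1) : Fpf h ((TD hK).X1 j) := by
  obtain rfl | rfl : j = 0 ∨ j = 1 := by omega
  · intro x hx e
    rw [if_pos rfl] at hne
    obtain ⟨t, rfl⟩ := mem_X0 hK hx
    have h1 := pairU_injective ((w.2.1 t).symm.trans e)
    have : t = 0 := by
      by_contra ht
      exact hne (Units.ext (mul_right_cancel₀ ht (h1.trans (one_mul t).symm)))
    rw [this, pairU_zero]
  · intro x hx e
    rw [if_neg (by omega)] at hne
    obtain ⟨t, u, rfl⟩ := mem_X1 hK hx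
    obtain ⟨h1, h2⟩ := b2U_injective ((w.2.2 t u).symm.trans e)
    have ht : t = 0 := by
      by_contra ht
      exact hne (Units.ext (mul_right_cancel₀ ht (h1.trans (one_mul t).symm)))
    have hu : u = 0 := by
      by_contra hu
      exact hne (nrm_eq_one hK (mul_right_cancel₀ hu (h2.trans (one_mul u).symm)))
    rw [ht, hu, b2U_zero]

theorem desc_repW {j : Fin 2} {L : List (Fin 2)}
    (h : chkDesc f4Wn (fun j => (f4Rep j).val) (chevF4.nroots / 2) (j :: L) = true) :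
    (TD hK).Desc (repW (f4Setup K hK) (j :: L)) j ∧
      chkDesc f4Wn (fun j => (f4Rep j).val) (chevF4.nroots / 2) L = true := by
  simp only [chkDesc, Bool.and_eq_true, decide_eq_true_eq] at h
  refine ⟨?_, h.2⟩
  show goodF4.rc (goodF4.perm (repW (f4Setup K hK) (j :: L) : GL chevF4.Idx K) ((f4Setup K hK).rep j)).val ≤ 0
  rw [rc_nonpos_iff goodF4 (Fin.isLt _), goodF4.isNegRoot_iff, (f4Table K hK).perm_repW]
  exact h.1

theorem repW_cons (j : Fin 2) (L : List (Fin 2)) :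
    repW (f4Setup K hK) (j :: L) * ((TD hK).nS j)⁻¹ = repW (f4Setup K hK) L := by
  rw [repW]; exact mul_inv_cancel_right _ _

theorem fpf_word {c : Kˣ} (hc : c ≠ 1) : ∀ (L : List (Fin 2)) (w : (ℤ × ℤ) × (ℤ × ℤ)) (h : ↥(chevF4.group K)),
    chkDesc f4Wn (fun j => (f4Rep j).val) (chevF4.nroots / 2) L = true → okW L w = true →
      Wt hK h (val m c w.1) (val m c w.2) → Fpf h ((TD hK).U1w (repW (f4Setup K hK) L))
  | [], _, _, _, _, _ => fun x hx _ => by
    rw [repW, (TD hK).U1w_H (one_mem _)] at hx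
    exact Subgroup.mem_bot.1 hx
  | j :: L, w, h, hd, hok, hw => by
    obtain ⟨hdj, hdL⟩ := desc_repW hK hd
    simp only [okW, Bool.and_eq_true] at hok
    refine fpf_step (TD hK) (f4_hne hK) (WeylTable.repW_mem _) hdj hw.1 (fpf_X1 hK hw j ?_) ?_
    · obtain ⟨k, hk⟩ : ∃ k, normExp (compW j w) = 2 ^ k := by
        have := hok.1
        simp only [List.contains_eq_mem, List.mem_cons, List.not_mem_nil, or_false, decide_eq_true_eq] at this
        rcases this with h | h | h | h | h | h | h | h | h | h | h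
        exacts [⟨0, h⟩, ⟨1, h⟩, ⟨2, h⟩, ⟨3, h⟩, ⟨4, h⟩, ⟨5, h⟩, ⟨6, h⟩, ⟨7, h⟩, ⟨8, h⟩, ⟨9, h⟩, ⟨10, h⟩]
      rw [← apply_ite (val m c)]
      exact val_ne_one hK hc hk
    · rw [repW_cons]
      exact fpf_word hc L _ _ hdL hok.2 (hw.step j)

/-- The exponents of an element centralising a class. -/
def startW (j : Fin 2) : (ℤ × ℤ) × (ℤ × ℤ) := if j = 0 then ((0, 0), (1, 0)) else ((1, 0), (0, 0))

/-- Are all the steps along a word possible? -/
def okAll : List (Fin 2) → Bool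
  | [] => true
  | j :: L => okW L (stepW j (startW j)) && okAll L

theorem okAll_top : okAll (f4Word (DihedralGroup.r 4)) = true := by decide +kernel

/-- Positive elements staying positive lie in the radical, which the unipotent group normalises. -/
theorem conj_keeps {j : Fin 2} {x w : ↥(chevF4.group K)} (hx : x ∈ (TD hK).U1) (hw : w ∈ (TD hK).U1)
    (hnw : (TD hK).nS j * w * ((TD hK).nS j)⁻¹ ∈ (TD hK).U1) :
    (TD hK).nS j * (x * w * x⁻¹) * ((TD hK).nS j)⁻¹ ∈ (TD hK).U := by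
  set S := f4Setup K hK
  have hn := S.nS_mon j
  have hcompl : goodF4.posSub (F := K) (goodF4.radSet (S.J j)) ≤
      goodF4.posSub (F := K) (goodF4.invSet (S.nS j : GL chevF4.Idx K))ᶜ :=
    goodF4.posSub_mono fun r hr h hmem => by
      rw [S.invSet_nS] at hmem
      exact h.2 hmem.2
  have hrad : (w : GL chevF4.Idx K) ∈ goodF4.posSub (F := K) (goodF4.radSet (S.J j)) := by
    obtain ⟨a, ha, c, hc, e⟩ := goodF4.factor (goodF4.radSet (S.J j))ᶜ (S.mem_U1.1 hw).1
    rw [compl_compl] at hc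
    have ha' : a ∈ goodF4.posSub (goodF4.invSet (S.nS j : GL chevF4.Idx K)) := by
      refine goodF4.posSub_mono (fun r hr h => ?_) ha
      rw [S.invSet_nS]
      exact ⟨hr, by_contra fun hn => h ⟨hr, hn⟩⟩
    have hV := goodF4.conj_posSub_invSet hn ha'
    have hcU := goodF4.conj_posSub_compl hn (hcompl hc)
    have hU : (S.nS j : GL chevF4.Idx K) * a * (S.nS j : GL chevF4.Idx K)⁻¹ ∈ chevF4.posUnipotent K := by
      have hw' : (S.nS j : GL chevF4.Idx K) * w * (S.nS j : GL chevF4.Idx K)⁻¹ ∈ chevF4.posUnipotent K :=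
        (S.mem_U1.1 hnw).1
      have := mul_mem hw' (inv_mem hcU)
      rw [e] at this
      convert this using 1
      group
    have h1 : (S.nS j : GL chevF4.Idx K) * a * (S.nS j : GL chevF4.Idx K)⁻¹ = 1 :=
      (Subgroup.eq_bot_iff_forall _).1 (goodF4.borel_inf_neg (F := K)) _
        (Subgroup.mem_inf.2 ⟨Subgroup.mem_sup_left hU, hV⟩)
    rw [e, conj_eq_one_iff.1 h1, one_mul]
    exact hc
  have hxn : (x : GL chevF4.Idx K) ∈
      Subgroup.normalizer (chevF4.unipotentRadical K (S.J j) : Set (GL chevF4.Idx K)) := by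
    refine (Subgroup.closure_le _).2 ?_ (S.mem_U1.1 hx).1
    rintro g ⟨r, t, hr, hg⟩
    rw [goodF4.eq_xg hg]
    exact goodF4.xg_mem_normalizer_rad (Or.inr hr) t
  rw [goodF4.unipotentRadical_eq] at hxn
  have hconj := (Subgroup.mem_normalizer_iff.1 hxn _).1 hrad
  have := goodF4.conj_posSub_compl hn (hcompl hconj)
  show _ ∈ S.data.U
  rw [S.data_U]
  exact this

variable {Γ : Type*} [Group Γ] {s : Γ →* ↥(chevF4.group K)} (hs : s.range = (TD hK).G1)
  (hc : s.ker ≤ Subgroup.center Γ) (hm : 1 ≤ m)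

include hs hc hm in
theorem exists_class (j : Fin 2) : ∃ L : Subgroup Γ, Good s (TD hK).H0 L ((TD hK).X1 j) := by
  obtain ⟨c, hcm⟩ := exists_moved hK hm
  have hc0 : c ≠ 0 := fun e => hcm (by rw [e, map_zero])
  have hc1 : Units.mk0 c hc0 ≠ 1 := fun e => hcm (by rw [show c = 1 from congrArg Units.val e, map_one])
  obtain ⟨h, hh⟩ := exists_wt hK (Units.mk0 c hc0) (Units.mk0 c hc0)
  have hfix : Finite ↥((TD hK).X1 j) := inferInstance
  refine exists_good_class hc (hs ▸ (X1_le_U1 (TD hK) j).trans (TD hK).U1_le_G1) (hs ▸ H0_le_G1 (TD hK))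
    (H0_comm hK) (fun t ht x hx => X1_conj hK j ht hx) hh.1 (fpf_X1 hK hh j (by split_ifs <;> exact hc1)) ?_
  obtain rfl | rfl : j = 0 ∨ j = 1 := by omega
  · intro x hx _
    have : ⁅((TD hK).X1 0).comap s, ((TD hK).X1 0).comap s⁆ ≤ ⊥ :=
      Subgroup.commutator_le.2 fun a ha b hb => Subgroup.mem_bot.2 (comm_X0 hK s hs hc hm ha hb)
    exact Subgroup.mem_bot.1 (this hx)
  · exact fun x hx h1 => commutator_X1 hK hs hc hm hx h1

include hs hc hm in
theorem exists_good_word : ∀ L : List (Fin 2),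
    chkDesc f4Wn (fun j => (f4Rep j).val) (chevF4.nroots / 2) L = true → okAll L = true →
      ∃ M : Subgroup Γ, Good s (TD hK).H0 M ((TD hK).U1w (repW (f4Setup K hK) L))
  | [], _, _ => ⟨⊥, by rw [repW, (TD hK).U1w_H (one_mem _)]; exact good_bot⟩
  | j :: L, hd, hok => by
    obtain ⟨hdj, hdL⟩ := desc_repW hK hd
    simp only [okAll, Bool.and_eq_true] at hok
    obtain ⟨M₀, hM₀⟩ := exists_good_word L hdL hok.2
    obtain ⟨Lj, hL⟩ := exists_class hK hs hc hm j
    have hnG := (TD hK).N0_le_G1 ((TD hK).nS_mem_N0 j)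
    obtain ⟨n, hn⟩ : ((TD hK).nS j)⁻¹ ∈ s.range := hs.symm ▸ inv_mem hnG
    have hM := hM₀.conj (n := n) fun t ht => by rw [hn, inv_inv]; exact (TD hK).H0_conj j t ht
    rw [hn] at hM
    set W := ((TD hK).U1w (repW (f4Setup K hK) L)).map (MulAut.conj ((TD hK).nS j)⁻¹).toMonoidHom with hW
    have hmemW : ∀ w, w ∈ W ↔ (TD hK).nS j * w * ((TD hK).nS j)⁻¹ ∈ (TD hK).U1w (repW (f4Setup K hK) L) := by
      intro w
      constructor
      · rintro ⟨v, hv, rfl⟩
        simpa [mul_assoc] using hv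
      · intro h
        exact ⟨_, h, by simp [mul_assoc]⟩
    have hmN := WeylTable.repW_mem (T := f4Setup K hK) (j :: L)
    have hWm : ∀ w ∈ W, w ∈ (TD hK).U1w (repW (f4Setup K hK) (j :: L)) := by
      intro w hw
      have h1 := (TD hK).U1w_join hmN hdj (one_mem _) (v := (TD hK).nS j * w * ((TD hK).nS j)⁻¹)
        (by rw [repW_cons]; exact (hmemW w).1 hw)
      simpa [mul_assoc] using h1
    obtain ⟨c, hcm⟩ := exists_moved hK hm
    have hc0 : c ≠ 0 := fun e => hcm (by rw [e, map_zero])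
    set cu := Units.mk0 c hc0
    have hcu : cu ≠ 1 := fun e => hcm (by rw [show c = 1 from congrArg Units.val e, map_one])
    obtain ⟨g, hg⟩ := exists_wt hK (val m cu (startW j).1) (val m cu (startW j).2)
    obtain ⟨h, rfl⟩ : g ∈ s.range := hs.symm ▸ H0_le_G1 (TD hK) hg.1
    have hfW : Fpf (s h) W := by
      intro w hw e
      have h1 := fpf_word hK hcu L _ _ hdL hok.1 (hg.step j) _ ((hmemW w).1 hw) (by
        calc (TD hK).nS j * s h * ((TD hK).nS j)⁻¹ * ((TD hK).nS j * w * ((TD hK).nS j)⁻¹) *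
              ((TD hK).nS j * s h * ((TD hK).nS j)⁻¹)⁻¹ =
              (TD hK).nS j * (s h * w * (s h)⁻¹) * ((TD hK).nS j)⁻¹ := by group
          _ = _ := by rw [e])
      exact conj_eq_one_iff.1 h1
    have hcen : ∀ x ∈ (TD hK).X1 j, s h * x = x * s h := by
      intro x hx
      have hX : s h * x * (s h)⁻¹ = x := by
        obtain rfl | rfl : j = 0 ∨ j = 1 := by omega
        · obtain ⟨t, rfl⟩ := mem_X0 hK hx
          rw [hg.2.1]; simp [startW, val]
        · obtain ⟨t, u, rfl⟩ := mem_X1 hK hx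
          rw [hg.2.2]; simp [startW, val]
      exact mul_inv_eq_iff_eq_mul.1 hX
    have hdis : ∀ x ∈ (TD hK).X1 j, x ∈ W → x = 1 := fun x hx hxW =>
      conj_eq_one_iff.1 ((TD hK).U_inf_V ((hmemW x).1 hxW).1.1 ((TD hK).X_conj_V j x hx.1))
    have hnorm : ∀ x ∈ (TD hK).X1 j, ∀ w ∈ W, x * w * x⁻¹ ∈ W := by
      intro x hx w hw
      have hxm : x ∈ (TD hK).U1w (repW (f4Setup K hK) (j :: L)) :=
        (TD hK).mem_U1w.2 ⟨X1_le_U1 (TD hK) j hx, (TD hK).desc_V _ hmN j hdj x hx.1⟩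
      have hkeep := conj_keeps hK (j := j) (X1_le_U1 (TD hK) j hx) (hWm w hw).1 ((hmemW w).1 hw).1
      obtain ⟨x', hx', v, hv, e⟩ := (TD hK).U1w_split hmN hdj (mul_mem (mul_mem hxm (hWm w hw)) (inv_mem hxm))
      have h1 : (TD hK).nS j * x' * ((TD hK).nS j)⁻¹ = 1 := (TD hK).U_inf_V (by
        have := mul_mem hkeep (inv_mem hv.1.1)
        rw [e] at this
        convert this using 1
        group) ((TD hK).X_conj_V j x' hx'.1)
      rw [repW_cons] at hv
      rw [hmemW, e, conj_eq_one_iff.1 h1]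
      simpa [mul_assoc] using hv
    obtain ⟨hjoin, -⟩ := hL.join hc hM hg.1 hcen hfW hnorm hdis
    suffices hU : (TD hK).U1w (repW (f4Setup K hK) (j :: L)) = (TD hK).X1 j ⊔ W from ⟨_, hU ▸ hjoin⟩
    refine le_antisymm (fun u hu => ?_) (sup_le (fun x hx => ?_) hWm)
    · obtain ⟨x, hx, v, hv, rfl⟩ := (TD hK).U1w_split hmN hdj hu
      rw [repW_cons] at hv
      exact mul_mem (Subgroup.mem_sup_left hx) (Subgroup.mem_sup_right ((hmemW _).2 (by simpa [mul_assoc] using hv)))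
    · exact (TD hK).mem_U1w.2 ⟨X1_le_U1 (TD hK) j hx, (TD hK).desc_V _ hmN j hdj x hx.1⟩

theorem U1_top : (TD hK).U1w (repW (f4Setup K hK) (f4Word (DihedralGroup.r 4))) = (TD hK).U1 := by
  refine le_antisymm inf_le_left fun u hu => (TD hK).mem_U1w.2 ⟨hu, ?_⟩
  have hN := WeylTable.mon_of_mem (WeylTable.repW_mem (T := f4Setup K hK) (f4Word (DihedralGroup.r 4)))
  refine (f4Setup K hK).R.conj_mem_of_forall hN (S := fun r => 0 ≤ goodF4.rc r.val)
    (fun r hr => (f4Setup K hK).R.X_le_V ?_) hu.1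
  show goodF4.rc (goodF4.perm (repW (f4Setup K hK) (f4Word (DihedralGroup.r 4)) : GL chevF4.Idx K) r).val ≤ 0
  rw [rc_nonpos_iff goodF4 (Fin.isLt _), goodF4.isNegRoot_iff, (f4Table K hK).perm_repW]
  exact f4_top r ((nonneg_rc_iff goodF4 r.2).1 hr)

include hs hc hm in
/-- The unipotent group lifts. -/
theorem exists_good_U1 : ∃ M : Subgroup Γ, Good s (TD hK).H0 M (TD hK).U1 :=
  U1_top hK ▸ exists_good_word hK hs hc hm _ (f4_word_desc _) okAll_top

end Cfsg.Agent.H70.F4Mult
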